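import Cfsg.Agent.Lib.AltGL.Step
import Cfsg.Agent.S0892

/-! Alternating sections of linear groups: reduction to central extensions (Feit-Tits). -/

set_option autoImplicit false
set_option linter.style.haveILetI false

namespace H82.AG

open Equiv Equiv.Perm Module
open scoped commutatorElement

universe u

variable {H : Type u} [Group H] {Ω : Type} [DecidableEq Ω] [Fintype Ω] {π : H →* Perm Ω}

theorem fact_le (surj : ∀ σ, sign σ = 1 → ∃ h, π h = σ) (h9 : 9 ≤ Fintype.card Ω) {M : Type*}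
    [Finite M] (f : H → M) (hf : ∀ a b, f a = f b → π a = π b) :
    (Fintype.card Ω).factorial ≤ 2 * Nat.card M := by
  have : Nontrivial Ω := Fintype.one_lt_card_iff_nontrivial.1 (by omega)
  choose s hs using fun σ : alternatingGroup Ω => surj σ (mem_alternatingGroup.1 σ.2)
  have h1 := Nat.card_le_card_of_injective (fun σ => f (s σ)) fun a b e =>
    Subtype.ext (by rw [← hs, ← hs, hf _ _ e])
  have h2 := two_mul_nat_card_alternatingGroup (α := Ω)
  rw [Nat.card_perm, Nat.card_eq_fintype_card (α := Ω)] at h2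
  omega

theorem le_ker (ev : ∀ h, sign (π h) = 1) (surj : ∀ σ, sign σ = 1 → ∃ h, π h = σ)
    (h9 : 9 ≤ Fintype.card Ω)
    (hmin : ∀ P : Subgroup H, (∀ σ, sign σ = 1 → ∃ h ∈ P, π h = σ) → P = ⊤)
    (N : Subgroup H) [N.Normal] (hN : N ≠ ⊤) : ∀ h ∈ N, π h = 1 := by
  let π' : H →* alternatingGroup Ω := π.codRestrict _ fun h => mem_alternatingGroup.2 (ev h)
  have hs : Function.Surjective π' := fun σ => by
    obtain ⟨h, hh⟩ := surj σ (mem_alternatingGroup.1 σ.2)
    exact ⟨h, Subtype.ext hh⟩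
  have := alternatingGroup.isSimpleGroup (α := Ω) (by rw [Nat.card_eq_fintype_card]; omega)
  rcases (Subgroup.Normal.map inferInstance π' hs : (N.map π').Normal).eq_bot_or_eq_top with h | h
  · exact fun b hb => congrArg Subtype.val (Subgroup.mem_bot.1 (h.le ⟨b, hb, rfl⟩))
  · refine absurd (hmin N fun σ hσ => ?_) hN
    obtain ⟨x, hxN, e⟩ := h.ge (Subgroup.mem_top ⟨σ, mem_alternatingGroup.2 hσ⟩)
    exact ⟨x, hxN, congrArg Subtype.val e⟩

theorem not_comm (surj : ∀ σ, sign σ = 1 → ∃ h, π h = σ) (h9 : 9 ≤ Fintype.card Ω) :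
    ∃ g h, π (g * h) ≠ π (h * g) := by
  obtain ⟨a, -⟩ := exists_notMem_list ([] : List Ω) (by simp; omega)
  obtain ⟨b, hb⟩ := exists_notMem_list [a] (by simp; omega)
  obtain ⟨c, hc⟩ := exists_notMem_list [a, b] (by simp; omega)
  obtain ⟨d, hd⟩ := exists_notMem_list [a, b, c] (by simp; omega)
  obtain ⟨α, h1⟩ := surj (cyc a b c) (sign_cyc (by grind) (by grind))
  obtain ⟨β, h2⟩ := surj (cyc a b d) (sign_cyc (by grind) (by grind))
  refine ⟨α, β, fun h6 => ?_⟩
  rw [map_mul, map_mul, h1, h2] at h6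
  have h7 := congrArg (fun σ : Perm Ω => σ a) h6
  simp only [mul_apply] at h7
  rw [cyc_a (by grind) (by grind), cyc_a (by grind) (by grind), cyc_b, cyc_b] at h7
  grind

theorem perfect (ev : ∀ h, sign (π h) = 1) (surj : ∀ σ, sign σ = 1 → ∃ h, π h = σ)
    (h9 : 9 ≤ Fintype.card Ω)
    (hmin : ∀ P : Subgroup H, (∀ σ, sign σ = 1 → ∃ h ∈ P, π h = σ) → P = ⊤) :
    commutator H = ⊤ := by
  by_contra hc
  obtain ⟨g, h, e⟩ := not_comm surj h9
  have := le_ker ev surj h9 hmin _ hc _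
    (Subgroup.commutator_mem_commutator (Subgroup.mem_top g) (Subgroup.mem_top h))
  rw [map_commutatorElement, commutatorElement_eq_one_iff_mul_comm, ← map_mul, ← map_mul] at this
  exact e this

theorem bd_mat [Finite H] (p : ℕ) [Fact p.Prime] {F : Type*} [Field F]
    (f : F →+* AlgebraicClosure (ZMod p)) {m : ℕ} (hB : Bd.{u} m)
    (ev : ∀ h, sign (π h) = 1) (surj : ∀ σ, sign σ = 1 → ∃ h, π h = σ) (h9 : 9 ≤ Fintype.card Ω)
    (ρ : H →* Matrix (Fin m) (Fin m) F) (hf : ∀ h, ρ h = 1 → π h = 1) :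
    Fintype.card Ω - 1 - (if p ∣ Fintype.card Ω then 1 else 0) ≤ m := by
  let L := AlgebraicClosure (ZMod p)
  let φ : Matrix (Fin m) (Fin m) F →+* End L (Fin m → L) :=
    (Matrix.toLinAlgEquiv' (R := L) (n := Fin m)).toRingEquiv.toRingHom.comp f.mapMatrix
  have hφ : Function.Injective φ :=
    (Matrix.toLinAlgEquiv' (R := L) (n := Fin m)).injective.comp (Matrix.map_injective f.injective)
  exact hB p L (Fin m → L) (by simp) Ω h9 H (φ.toMonoidHom.comp ρ) π ev surj fun h e =>
    hf h (hφ (by rw [map_one]; exact e))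

variable {k V : Type} [Field k] [AddCommGroup V] [Module k V] [FiniteDimensional k V]
  [IsAlgClosed k] {ρ : H →* End k V}

theorem abelian_case [Nontrivial V] (ev : ∀ h, sign (π h) = 1)
    (surj : ∀ σ, sign σ = 1 → ∃ h, π h = σ) (h9 : 9 ≤ Fintype.card Ω)
    (hmin : ∀ P : Subgroup H, (∀ σ, sign σ = 1 → ∃ h ∈ P, π h = σ) → P = ⊤)
    (hirr : ∀ W : Submodule k V, (∀ g, ∀ v ∈ W, ρ g v ∈ W) → W = ⊥ ∨ W = ⊤)
    (E : Subgroup H) [hE : E.Normal] (hc : ∀ a ∈ E, ∀ b ∈ E, a * b = b * a) :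
    Fintype.card Ω ≤ finrank k V ∨ ∀ e ∈ E, ∃ c : k, ∀ v, ρ e v = c • v := by
  let X := {χ : E → k // Wt (fun e : E => ρ e) χ}
  have hX : Finite X := by
    choose v hv he using fun χ : X => χ.2
    exact (li_of_wt _ v _ hv he Subtype.val_injective).finite
  have hcard : Nat.card X ≤ finrank k V :=
    card_le_of_wt _ Subtype.val (fun χ => χ.2) Subtype.val_injective
  letI : MulAction H X :=
    { smul := fun g χ => ⟨fun e => χ.1 ⟨g⁻¹ * e * g⁻¹⁻¹, hE.conj_mem _ e.2 _⟩, by
        obtain ⟨v, hv, h⟩ := χ.2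
        refine ⟨ρ g v, act_ne ρ g hv, fun e => ?_⟩
        have := congrArg (ρ g) (h ⟨g⁻¹ * e * g⁻¹⁻¹, hE.conj_mem _ e.2 _⟩)
        rw [map_smul] at this
        rw [← this, ← act_mul, ← act_mul]
        congr 2
        simp [mul_assoc]⟩
      one_smul := fun χ => Subtype.ext (funext fun e => congrArg χ.1 (Subtype.ext (by simp)))
      mul_smul := fun a b χ => Subtype.ext (funext fun e => congrArg χ.1 (Subtype.ext (by
        simp [mul_assoc]))) }
  by_cases hN : (MulAction.toPermHom H X).ker = ⊤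
  · right
    obtain ⟨χ, hχ⟩ := exists_wt (fun e : E => ρ e) fun a b => Commute.map (hc _ a.2 _ b.2) ρ
    have h1 : ∀ (g : H) (e : E), χ ⟨g⁻¹ * e * g⁻¹⁻¹, hE.conj_mem _ e.2 _⟩ = χ e := fun g e =>
      congrFun (congrArg Subtype.val (congrArg (fun σ : Perm X => σ ⟨χ, hχ⟩)
        (MonoidHom.mem_ker.1 (hN.ge (Subgroup.mem_top g))))) e
    obtain ⟨v, hv, h⟩ := hχ
    rcases hirr (⨅ e : E, (ρ e).eigenspace (χ e)) (fun g w hw => by
      simp only [Submodule.mem_iInf, End.mem_eigenspace_iff] at hw ⊢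
      intro e
      have := congrArg (ρ g) (hw ⟨g⁻¹ * e * g⁻¹⁻¹, hE.conj_mem _ e.2 _⟩)
      rw [map_smul, h1] at this
      rw [← this, ← act_mul, ← act_mul]
      congr 2
      simp [mul_assoc]) with h2 | h2
    · refine absurd (h2.le ?_) hv
      simp only [Submodule.mem_iInf, End.mem_eigenspace_iff]
      exact h
    · intro e he
      refine ⟨χ ⟨e, he⟩, fun w => ?_⟩
      have := h2.ge (Submodule.mem_top (x := w))
      simp only [Submodule.mem_iInf, End.mem_eigenspace_iff] at this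
      exact this ⟨e, he⟩
  · left
    have h1 := fact_le surj h9 (MulAction.toPermHom H X) fun a b e => by
      rw [← inv_mul_eq_one, ← map_inv, ← map_mul]
      exact le_ker ev surj h9 hmin _ hN _ (by
        rw [MonoidHom.mem_ker, map_mul, map_inv, e, inv_mul_cancel])
    rw [Nat.card_perm] at h1
    by_contra hlt
    obtain ⟨r, hr⟩ : ∃ r, Fintype.card Ω = r + 1 := ⟨Fintype.card Ω - 1, by omega⟩
    have h2 := Nat.factorial_le (show Nat.card X ≤ r by omega)
    have h3 := Nat.factorial_pos r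
    rw [hr, Nat.factorial_succ] at h1
    nlinarith

omit [IsAlgClosed k] in
theorem card_le_sq [Nontrivial V] [Finite H] (hinj : Function.Injective ρ)
    (hs : ∀ z ∈ Subgroup.center H, ∃ c : k, ∀ v, ρ z v = c • v) (E : Subgroup H)
    (h1 : ⁅E, E⁆ ≤ Subgroup.center H)
    (h2 : E ⊓ Subgroup.centralizer (E : Set H) ≤ Subgroup.center H) :
    Nat.card (E.map (QuotientGroup.mk' (Subgroup.center H))) ≤ finrank k V * finrank k V := by
  choose s hs1 hs2 using fun a : E.map (QuotientGroup.mk' (Subgroup.center H)) => a.2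
  choose c hc using fun (a : E.map (QuotientGroup.mk' (Subgroup.center H))) (e : E) =>
    hs _ (h1 (Subgroup.commutator_mem_commutator e.2 (hs1 a)))
  rw [← finrank_linearMap k k V V]
  refine card_le_of_wt (V := End k V)
    (fun e : E => LinearMap.mulLeft k (ρ e) ∘ₗ LinearMap.mulRight k (ρ (e : H)⁻¹)) c
    (fun a => ⟨ρ (s a), fun h => ?_, fun e => ?_⟩) fun a b h => ?_
  · obtain ⟨v, hv⟩ := exists_ne (0 : V)
    exact act_ne ρ (s a) hv (by rw [h]; rfl)
  · ext v
    rw [LinearMap.smul_apply, ← hc, ← act_mul, commutatorElement_def, inv_mul_cancel_right,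
      mul_assoc, map_mul, map_mul]
    rfl
  · have h3 : ∀ e : E, ⁅(e : H), s a⁆ = ⁅(e : H), s b⁆ := fun e => hinj (by
      ext v; rw [hc, hc, h])
    have h4 : (s b)⁻¹ * s a ∈ Subgroup.center H := h2 ⟨E.mul_mem (E.inv_mem (hs1 b)) (hs1 a), by
      intro e he
      have := h3 ⟨e⁻¹, inv_mem he⟩
      simp only [commutatorElement_def, inv_inv, mul_assoc, mul_right_inj] at this
      calc e * ((s b)⁻¹ * s a) = (s b)⁻¹ * (s b * (e * (s b)⁻¹)) * s a := by group
        _ = _ := by rw [← this]; group⟩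
    exact Subtype.ext (by rw [← hs2, ← hs2]; exact (QuotientGroup.eq.2 h4).symm)

/-- The linear action on an elementary abelian group. -/
def linOf {A : Type*} [CommGroup A] (l : ℕ) [Module (ZMod l) (Additive A)] (ψ : H →* MulAut A) :
    H →* End (ZMod l) (Additive A) where
  toFun g := (MonoidHom.toAdditive (ψ g).toMonoidHom).toZModLinearMap l
  map_one' := LinearMap.ext fun a => by rw [End.one_apply, map_one]; rfl
  map_mul' a b := LinearMap.ext fun x => by rw [End.mul_apply, map_mul]; rfl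

theorem elem_case [Finite H] (ev : ∀ h, sign (π h) = 1)
    (surj : ∀ σ, sign σ = 1 → ∃ h, π h = σ) (h9 : 9 ≤ Fintype.card Ω) {n : ℕ}
    (ih : ∀ m < n, Bd.{u} m) {A : Type u} [CommGroup A] [Finite A] (l : ℕ) [Fact l.Prime]
    (hl : ∀ a : A, a ^ l = 1) (hA : Nat.card A ≤ n * n) (ψ : H →* MulAut A)
    (hψ : ∀ h, ψ h = 1 → π h = 1) : Fintype.card Ω - 1 ≤ n := by
  obtain ⟨_⟩ : Nonempty (Module (ZMod l) (Additive A)) :=
    ⟨AddCommGroup.zmodModule fun a => hl a.toMul⟩
  let ρ1 := linOf l ψ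
  haveI : Module.Finite (ZMod l) (Additive A) := Module.Finite.of_finite
  obtain ⟨m, b, hc⟩ : ∃ (m : ℕ) (_ : Basis (Fin m) (ZMod l) (Additive A)), Nat.card A = l ^ m :=
    ⟨_, finBasis (ZMod l) (Additive A), by
      rw [← Nat.card_congr (Additive.toMul (α := A)), natCard_eq_pow_finrank (K := ZMod l),
        Nat.card_zmod]⟩
  let ρ2 : H →* Matrix (Fin m) (Fin m) (ZMod l) :=
    (LinearMap.toMatrixAlgEquiv b).toRingEquiv.toMonoidHom.comp ρ1
  have hf : ∀ h, ρ2 h = 1 → π h = 1 := fun h e => hψ h (by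
    have : ρ1 h = 1 := (LinearMap.toMatrixAlgEquiv b).injective (by rw [map_one]; exact e)
    ext a
    exact LinearMap.congr_fun this (Additive.ofMul a))
  by_cases hm : m < n
  · have := bd_mat l (algebraMap (ZMod l) _) (ih m hm) ev surj h9 ρ2 hf
    split_ifs at this <;> omega
  exfalso
  have h2 : 2 ^ m ≤ l ^ m := Nat.pow_le_pow_left (Fact.out : l.Prime).two_le m
  have h3 : n * n ≤ m * m := Nat.mul_le_mul (by omega) (by omega)
  have h4 : m ≤ 4 := by
    by_contra h
    have : ∀ t, (t + 5) * (t + 5) < 2 ^ (t + 5) := fun t => by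
      induction t with
      | zero => decide
      | succ t ih => rw [show t + 1 + 5 = t + 5 + 1 from rfl, pow_succ]; nlinarith
    have := this (m - 5)
    rw [show m - 5 + 5 = m by omega] at this
    omega
  have h5 := fact_le surj h9 ρ2 fun a b e => by
    rw [← inv_mul_eq_one, ← map_inv, ← map_mul]
    exact hf _ (by rw [map_mul, ← e, ← map_mul, inv_mul_cancel, map_one])
  have h6 : Nat.card (Matrix (Fin m) (Fin m) (ZMod l)) = (l ^ m) ^ m := by
    simp [Matrix]
  have h7 : (l ^ m) ^ m ≤ 16 ^ 4 :=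
    (Nat.pow_le_pow_left (show l ^ m ≤ 16 by nlinarith) m).trans (Nat.pow_le_pow_right (by decide) h4)
  have h8 := Nat.factorial_le h9
  have h10 : Nat.factorial 9 = 362880 := by decide
  omega

theorem ker_central [Finite H] (ev : ∀ h, sign (π h) = 1)
    (surj : ∀ σ, sign σ = 1 → ∃ h, π h = σ) (h9 : 9 ≤ Fintype.card Ω)
    (hmin : ∀ P : Subgroup H, (∀ σ, sign σ = 1 → ∃ h ∈ P, π h = σ) → P = ⊤)
    (hinj : Function.Injective ρ)
    (hirr : ∀ W : Submodule k V, (∀ g, ∀ v ∈ W, ρ g v ∈ W) → W = ⊥ ∨ W = ⊤)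
    (ih : ∀ m < finrank k V, Bd.{u} m) :
    Fintype.card Ω - 1 ≤ finrank k V ∨ π.ker ≤ Subgroup.center H := by
  have : Nontrivial V := by
    obtain ⟨g, h, e⟩ := not_comm surj h9
    by_contra hc
    rw [not_nontrivial_iff_subsingleton] at hc
    exact e (congrArg π (hinj (LinearMap.ext fun _ => Subsingleton.elim _ _)))
  by_contra hcon
  push Not at hcon
  obtain ⟨hlt, hK⟩ := hcon
  have hab : ∀ (E : Subgroup H) [E.Normal], (∀ a ∈ E, ∀ b ∈ E, a * b = b * a) →
      ∀ e ∈ E, ∃ c : k, ∀ v, ρ e v = c • v := fun E _ hc =>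
    (abelian_case ev surj h9 hmin hirr E hc).resolve_left (by omega)
  obtain ⟨E, ⟨hEn, hEK, hEZ⟩, hE⟩ := (wellFounded_lt (α := Subgroup H)).has_min
    {E | E.Normal ∧ E ≤ π.ker ∧ ¬ E ≤ Subgroup.center H} ⟨π.ker, inferInstance, le_rfl, hK⟩
  have hE' : ∀ D : Subgroup H, D.Normal → D ≤ E → D ≤ Subgroup.center H ∨ D = E := fun D h1 h2 => by
    by_contra hc
    push Not at hc
    exact hE D ⟨h1, h2.trans hEK, hc.1⟩ (lt_of_le_of_ne h2 hc.2)
  have hF : E ≤ frattini H := hEK.trans (le_iInf₂ fun M hM => by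
    by_contra hc
    have h1 : M ⊔ π.ker = ⊤ := hM.2 _ (left_lt_sup.2 hc)
    refine hM.1 (hmin M fun σ hσ => ?_)
    obtain ⟨h, rfl⟩ := surj σ hσ
    obtain ⟨a, ha, b, hb, rfl⟩ := Subgroup.mem_sup_of_normal_right.1 (h1.ge (Subgroup.mem_top h))
    exact ⟨a, ha, by rw [map_mul, MonoidHom.mem_ker.1 hb, mul_one]⟩)
  have h1 : ⁅E, E⁆ ≤ Subgroup.center H := by
    refine (hE' _ inferInstance (Subgroup.commutator_le_left E E)).resolve_right fun e => ?_
    have := frattini_nilpotent (G := H)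
    have h2 := Group.IsSolvable.commutator_lt_of_ne_bot (H := E.subgroupOf (frattini H)) (by
      intro h
      rw [Subgroup.subgroupOf_eq_bot] at h
      exact hEZ ((h.eq_bot_of_le hF).le.trans bot_le))
    refine h2.ne (Subgroup.map_injective (frattini H).subtype_injective ?_)
    rw [Subgroup.map_commutator, Subgroup.map_subgroupOf_eq_of_le hF, e]
  have h2 : E ⊓ Subgroup.centralizer (E : Set H) ≤ Subgroup.center H := by
    refine (hE' _ inferInstance inf_le_left).resolve_right fun e => hEZ fun x hx => ?_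
    obtain ⟨c, hc⟩ := hab E (fun a ha b hb => (e.ge hb).2 a ha) x hx
    exact Subgroup.mem_center_iff.2 fun g => hinj (by
      ext v; rw [act_mul, act_mul, hc, hc, map_smul])
  have h3 := card_le_sq hinj (hab _ fun a ha b _ => (Subgroup.mem_center_iff.1 ha b).symm) E h1 h2
  let q := QuotientGroup.mk' (Subgroup.center H)
  have hAn : (E.map q).Normal := hEn.map q (QuotientGroup.mk'_surjective _)
  have hq : ∀ a ∈ E, ∀ b ∈ E, q a * q b = q b * q a := fun a ha b hb => by
    rw [← commutatorElement_eq_one_iff_mul_comm, ← map_commutatorElement]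
    exact (QuotientGroup.eq_one_iff _).2 (h1 (Subgroup.commutator_mem_commutator ha hb))
  letI : CommGroup (E.map q) :=
    { (inferInstance : Group (E.map q)) with
      mul_comm := by
        rintro ⟨_, a, ha, rfl⟩ ⟨_, b, hb, rfl⟩
        exact Subtype.ext (hq a ha b hb) }
  obtain ⟨l, hl, hld⟩ := Nat.exists_prime_and_dvd (n := Nat.card (E.map q)) fun h => by
    rw [Subgroup.card_eq_one, Subgroup.map_eq_bot_iff, QuotientGroup.ker_mk'] at h
    exact hEZ h
  have := Fact.mk hl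
  obtain ⟨⟨_, x, hx, rfl⟩, hxl⟩ := exists_prime_orderOf_dvd_card' l hld
  let D : Subgroup H :=
    { carrier := {e | e ∈ E ∧ q e ^ l = 1}
      one_mem' := ⟨one_mem _, by simp⟩
      mul_mem' := fun {a b} ha hb => ⟨mul_mem ha.1 hb.1, by
        rw [map_mul, Commute.mul_pow (hq a ha.1 b hb.1), ha.2, hb.2, mul_one]⟩
      inv_mem' := fun {a} ha => ⟨inv_mem ha.1, by rw [map_inv, inv_pow, ha.2, inv_one]⟩ }
  have hD : D = E := by
    refine (hE' D ⟨fun a ha g => ⟨hEn.conj_mem a ha.1 g, by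
      rw [map_mul, map_mul, map_inv, conj_pow, ha.2, mul_one, mul_inv_cancel]⟩⟩
      fun a ha => ha.1).resolve_left fun h => ?_
    have h4 : q x = 1 := (QuotientGroup.eq_one_iff _).2 (h ⟨hx, by
      have := congrArg Subtype.val (pow_orderOf_eq_one (⟨q x, x, hx, rfl⟩ : E.map q))
      rwa [hxl] at this⟩)
    rw [show (⟨q x, x, hx, rfl⟩ : E.map q) = 1 from Subtype.ext h4, orderOf_one] at hxl
    exact hl.one_lt.ne hxl
  have h4 := elem_case ev surj h9 ih (A := E.map q) l
    (by rintro ⟨_, a, ha, rfl⟩; exact Subtype.ext (hD.ge ha).2) h3 (MulAut.conjNormal.comp q)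
    (le_ker ev surj h9 hmin (MulAut.conjNormal.comp q).ker fun h => hEZ fun e he => by
      have h5 := H72.AC.commutator_le_cent (K := ⊤) (y := e) fun g _ => by
        have := congrArg (fun f : MulAut (E.map q) => (f ⟨q e, e, he, rfl⟩ : H ⧸ Subgroup.center H))
          (MonoidHom.mem_ker.1 (h.ge (Subgroup.mem_top g)))
        refine (QuotientGroup.eq_one_iff _).1 ?_
        change q ⁅g, e⁆ = 1
        rw [map_commutatorElement, commutatorElement_def, mul_inv_eq_one]
        exact this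
      rw [← commutator_def, perfect ev surj h9 hmin] at h5
      exact Subgroup.mem_center_iff.2 fun g =>
        Subgroup.mem_centralizer_singleton_iff.1 (h5 (Subgroup.mem_top g)))
  omega

theorem ker_two [Finite H] (ev : ∀ h, sign (π h) = 1)
    (surj : ∀ σ, sign σ = 1 → ∃ h, π h = σ) (h9 : 9 ≤ Fintype.card Ω)
    (hp : commutator H = ⊤) (hK : π.ker ≤ Subgroup.center H) (z z' : H) (hz : π z = 1)
    (hz' : π z' = 1) (h1 : z ≠ 1) (h2 : z' ≠ 1) : z = z' := by
  let π' : H →* alternatingGroup Ω := π.codRestrict _ fun h => mem_alternatingGroup.2 (ev h)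
  have hs : Function.Surjective π' := fun σ => by
    obtain ⟨h, hh⟩ := surj σ (mem_alternatingGroup.1 σ.2)
    exact ⟨h, Subtype.ext hh⟩
  have hk : π'.ker = π.ker := MonoidHom.ker_codRestrict _ _ _
  have h3 := Cfsg.Agent.S0892.result (Fintype.card Ω) (by omega) (by omega) (by omega) π'.ker
    (hk ▸ hK) (hp ▸ le_top) ((QuotientGroup.quotientKerEquivOfSurjective π' hs).trans
      (Equiv.altCongrHom (Fintype.equivFin Ω)))
  rw [hk] at h3
  by_contra hne
  have := Fintype.ofFinite π.ker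
  rw [Nat.card_eq_fintype_card] at h3
  exact absurd (Fintype.two_lt_card_iff.2 ⟨(1 : π.ker), ⟨z, hz⟩, ⟨z', hz'⟩,
    fun e => h1 (congrArg Subtype.val e).symm, fun e => h2 (congrArg Subtype.val e).symm,
    fun e => hne (congrArg Subtype.val e)⟩) (by omega)

theorem bd (n : ℕ) : Bd.{u} n := by
  induction n using Nat.strong_induction_on with
  | _ n ih =>
  intro p _ k _ _ _ V _ _ _ hn Ω _ _ h9 H _ _
  subst hn
  induction hN : Nat.card H using Nat.strong_induction_on generalizing H with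
  | _ N ih2 =>
  intro ρ π ev surj hf
  subst hN
  by_cases hmin : ∀ P : Subgroup H, (∀ σ, sign σ = 1 → ∃ h ∈ P, π h = σ) → P = ⊤
  swap
  · push Not at hmin
    obtain ⟨P, h1, h2⟩ := hmin
    refine ih2 _ ?_ P rfl (ρ.comp P.subtype) (π.comp P.subtype) (fun h => ev h)
      (fun σ hσ => let ⟨h, hh, e⟩ := h1 σ hσ; ⟨⟨h, hh⟩, e⟩) fun h => hf h
    exact lt_of_le_of_ne (Subgroup.card_le_card_group P) fun e => h2 (Subgroup.eq_top_of_card_eq P e)
  by_cases hinj : ρ.ker = ⊥
  swap
  · refine ih2 _ ?_ (H ⧸ ρ.ker) rfl (QuotientGroup.lift _ ρ fun _ h => h)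
      (QuotientGroup.lift _ π hf) (fun h => ?_) (fun σ hσ => ?_) fun h => ?_
    · have h1 := Subgroup.card_eq_card_quotient_mul_card_subgroup ρ.ker
      have h2 := (Subgroup.one_lt_card_iff_ne_bot _).2 hinj
      have h3 : 0 < Nat.card (H ⧸ ρ.ker) := Nat.card_pos
      nlinarith
    · obtain ⟨h, rfl⟩ := QuotientGroup.mk_surjective h
      exact ev h
    · obtain ⟨h, e⟩ := surj σ hσ
      exact ⟨h, e⟩
    · obtain ⟨h, rfl⟩ := QuotientGroup.mk_surjective h
      exact hf h
  replace hinj : Function.Injective ρ := fun a b e => by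
    rw [← inv_mul_eq_one, ← Subgroup.mem_bot, ← hinj, MonoidHom.mem_ker, map_mul, ← e, ← map_mul,
      inv_mul_cancel, map_one]
  by_cases hirr : ∀ W : Submodule k V, (∀ g, ∀ v ∈ W, ρ g v ∈ W) → W = ⊥ ∨ W = ⊤
  swap
  · push Not at hirr
    obtain ⟨W, hW, h1, h2⟩ := hirr
    let ρ1 : H →* End k W := Representation.subrepresentation ρ W hW
    let ρ2 : H →* End k (V ⧸ W) := Representation.quotient ρ W hW
    have h5 := W.finrank_quotient_add_finrank
    have h6 := Submodule.finrank_lt h2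
    have h7 : finrank k W ≠ 0 := fun e => h1 (Submodule.finrank_eq_zero.1 e)
    by_cases e1 : ρ1.ker = ⊤
    swap
    · exact (ih _ h6 p k W rfl Ω h9 H ρ1 π ev surj (le_ker ev surj h9 hmin _ e1)).trans h6.le
    by_cases e2 : ρ2.ker = ⊤
    swap
    · exact (ih _ (by omega) p k (V ⧸ W) rfl Ω h9 H ρ2 π ev surj
        (le_ker ev surj h9 hmin _ e2)).trans (by omega)
    have h8 : ∀ g h v, ρ g (ρ h v) = ρ g v + (ρ h v - v) := fun g h v => by
      have a1 : ρ h v - v ∈ W := (Submodule.Quotient.eq W).1 (LinearMap.congr_fun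
        (MonoidHom.mem_ker.1 (e2.ge (Subgroup.mem_top h))) (Submodule.Quotient.mk v))
      have a2 : ρ g (ρ h v - v) = ρ h v - v := congrArg Subtype.val (LinearMap.congr_fun
        (MonoidHom.mem_ker.1 (e1.ge (Subgroup.mem_top g))) ⟨_, a1⟩)
      rw [← a2, map_sub, add_sub_cancel]
    obtain ⟨g, h, e⟩ := not_comm surj h9
    refine absurd (congrArg π (hinj ?_)) e
    ext v
    rw [act_mul, act_mul, h8 g h, h8 h g]; abel
  rcases ker_central ev surj h9 hmin hinj hirr ih with h | h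
  · omega
  have h2 := ker_two ev surj h9 (perfect ev surj h9 hmin) h
  refine central p ⟨ev, surj, fun z hz g => (Subgroup.mem_center_iff.1 (h hz) g).symm,
    fun z hz => ?_⟩ hf h9 hmin h2 ih
  by_cases h3 : z = 1
  · simp [h3]
  · rw [mul_eq_one_iff_eq_inv]
    exact h2 _ _ hz (by rw [map_inv, hz, inv_one]) h3 (inv_ne_one.2 h3)

end H82.AG
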