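import Mathlib
import Cfsg.Agent.Lib.CrossChar.Weights

/-! Linear algebra: weight vectors, eigenspace counts, a cocycle dimension bound. -/

set_option autoImplicit false
set_option linter.style.haveILetI false

namespace H82.AG

open Module

variable {k V : Type*} [Field k] [AddCommGroup V] [Module k V]

theorem li_of_wt {ι A : Type*} (x : A → End k V) (v : ι → V) (χ : ι → A → k) (hv : ∀ i, v i ≠ 0)
    (he : ∀ i a, x a (v i) = χ i a • v i) (hχ : Function.Injective χ) : LinearIndependent k v := by
  classical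
  rw [linearIndependent_iff']
  intro s
  induction s using Finset.induction_on with
  | empty => simp
  | insert j s hj ih =>
    intro g hg
    rw [Finset.sum_insert hj] at hg
    have h1 : ∀ i ∈ s, g i = 0 := by
      intro i hi
      obtain ⟨a, ha⟩ : ∃ a, χ i a ≠ χ j a := Function.ne_iff.1 fun e => hj (hχ e ▸ hi)
      have h2 := congrArg (x a) hg
      rw [map_add, map_sum, map_zero, map_smul, he] at h2
      have h3 : ∑ i ∈ s, (g i * (χ i a - χ j a)) • v i = 0 := by
        have h4 := congrArg (fun w => χ j a • w) hg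
        simp only [smul_add, smul_zero, Finset.smul_sum] at h4
        have h5 : ∑ i ∈ s, (g i * (χ i a - χ j a)) • v i =
            ∑ i ∈ s, x a (g i • v i) - ∑ i ∈ s, χ j a • g i • v i := by
          rw [← Finset.sum_sub_distrib]
          refine Finset.sum_congr rfl fun i _ => ?_
          rw [map_smul, he, smul_smul, smul_smul, ← sub_smul]
          congr 1; ring
        rw [h5, eq_neg_of_add_eq_zero_right h2, eq_neg_of_add_eq_zero_right h4, smul_comm, sub_self]
      exact (mul_eq_zero.1 (ih _ h3 i hi)).resolve_right (sub_ne_zero.2 ha)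
    intro i hi
    rcases Finset.mem_insert.1 hi with rfl | hi
    · rw [Finset.sum_eq_zero (fun l hl => by rw [h1 l hl, zero_smul]), add_zero] at hg
      exact (smul_eq_zero.1 hg).resolve_right (hv i)
    · exact h1 i hi

/-- `χ` is a weight of the family `x`. -/
def Wt {A : Type*} (x : A → End k V) (χ : A → k) : Prop := ∃ v, v ≠ 0 ∧ ∀ a, x a v = χ a • v

theorem card_le_of_wt [FiniteDimensional k V] {ι A : Type*} [Finite ι] (x : A → End k V)
    (χ : ι → A → k) (h : ∀ i, Wt x (χ i)) (hχ : Function.Injective χ) :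
    Nat.card ι ≤ finrank k V := by
  choose v hv he using h
  have := Fintype.ofFinite ι
  rw [Nat.card_eq_fintype_card]
  exact (li_of_wt x v χ hv he hχ).fintype_card_le_finrank

theorem eq_zero_of_wt [IsAlgClosed k] [FiniteDimensional k V] {A : Type*} (x : A → End k V)
    (hc : ∀ a b, Commute (x a) (x b)) {N : ℕ} (hN : (N : k) ≠ 0) (hx : ∀ a, x a ^ N = 1)
    (φ : End k V) (h : ∀ (χ : A → k) v, (∀ a, x a v = χ a • v) → φ v = 0) : φ = 0 := by
  have heq : ∀ a μ, (x a).maxGenEigenspace μ = (x a).eigenspace μ := fun a μ =>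
    (H63.CrossChar.isSemisimple_of_pow_eq_one hN (hx a)).isFinitelySemisimple.maxGenEigenspace_eq_eigenspace μ
  have htop : ⨆ χ : A → k, ⨅ a, (x a).maxGenEigenspace (χ a) = ⊤ :=
    End.iSup_iInf_maxGenEigenspace_eq_top_of_iSup_maxGenEigenspace_eq_top_of_commute _
      (fun a b _ => hc a b) (fun a => End.iSup_maxGenEigenspace_eq_top _)
  rw [← LinearMap.ker_eq_top, eq_top_iff, ← htop]
  refine iSup_le fun χ v hv => h χ v fun a => ?_
  simpa only [heq, End.mem_eigenspace_iff] using (Submodule.mem_iInf _).1 hv a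

theorem exists_wt [IsAlgClosed k] [FiniteDimensional k V] [Nontrivial V] {A : Type*}
    (x : A → End k V) (hc : ∀ a b, Commute (x a) (x b)) : ∃ χ, Wt x χ := by
  obtain ⟨W, ⟨hW0, hW⟩, hmin⟩ := (wellFounded_lt (α := Submodule k V)).has_min
    {W | W ≠ ⊥ ∧ ∀ a, ∀ v ∈ W, x a v ∈ W} ⟨⊤, top_ne_bot, fun _ _ _ => trivial⟩
  have : Nontrivial W := Submodule.nontrivial_iff_ne_bot.2 hW0
  have key : ∀ a, ∃ μ : k, ∀ v ∈ W, x a v = μ • v := by
    intro a
    obtain ⟨μ, hμ⟩ := End.exists_eigenvalue ((x a).restrict (hW a))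
    obtain ⟨w, hw⟩ := hμ.exists_hasEigenvector
    refine ⟨μ, ?_⟩
    have h1 : ¬ W ⊓ (x a).eigenspace μ < W := by
      refine hmin _ ⟨?_, fun b v hv => ⟨hW b v hv.1, ?_⟩⟩
      · rw [Submodule.ne_bot_iff]
        refine ⟨w, ⟨w.2, End.mem_eigenspace_iff.2 (congrArg Subtype.val hw.apply_eq_smul)⟩,
          fun e => hw.2 (Subtype.ext e)⟩
      · have := End.mem_eigenspace_iff.1 hv.2
        rw [SetLike.mem_coe, End.mem_eigenspace_iff, ← End.mul_apply, hc a b, End.mul_apply, this,
          map_smul]
    intro v hv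
    have h2 : W ⊓ (x a).eigenspace μ = W := (eq_or_lt_of_le inf_le_left).resolve_right h1
    exact End.mem_eigenspace_iff.1 (h2.ge hv).2
  choose χ hχ using key
  obtain ⟨v, hv, hv0⟩ := (Submodule.ne_bot_iff W).1 hW0
  exact ⟨χ, v, hv0, fun a => hχ a v hv⟩

theorem eig_sum [FiniteDimensional k V] (f : End k V) (s : Finset k) (d : ℕ)
    (h : ∀ μ ∈ s, d ≤ finrank k (f.eigenspace μ)) : s.card * d ≤ finrank k V := by
  classical
  have h1 : iSupIndep (fun μ : s => f.eigenspace μ) :=
    (End.eigenspaces_iSupIndep f).comp Subtype.val_injective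
  have h2 := LinearMap.finrank_le_finrank_of_injective h1.dfinsupp_lsum_injective
  refine le_trans ?_ h2
  have h3 := finrank_directSum (R := k) (fun μ : s => f.eigenspace μ)
  refine le_trans ?_ h3.ge
  calc s.card * d = ∑ _μ : s, d := by simp
    _ ≤ _ := Finset.sum_le_sum fun μ _ => h μ μ.2

theorem eig_le [FiniteDimensional k V] {f g g' : End k V} {e : ℕ} (h1 : g * g' = 1)
    (h : f * g' = g' * f ^ e) (μ : k) :
    finrank k (f.eigenspace μ) ≤ finrank k (f.eigenspace (μ ^ e)) := by
  have hm : ∀ v ∈ f.eigenspace μ, g' v ∈ f.eigenspace (μ ^ e) := fun v hv => by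
    rw [End.mem_eigenspace_iff, ← End.mul_apply, h, End.mul_apply, ← map_smul]
    congr 1
    have := End.mem_eigenspace_iff.1 hv
    clear h
    induction e with
    | zero => simp
    | succ e ih => rw [pow_succ, End.mul_apply, this, map_smul, ih, smul_smul, pow_succ']
  refine LinearMap.finrank_le_finrank_of_injective (f := g'.restrict hm) fun a b e => ?_
  have := congrArg (fun w => g w.1) e
  simp only [LinearMap.restrict_apply] at this
  rwa [← End.mul_apply, ← End.mul_apply, h1, End.one_apply, End.one_apply, Subtype.coe_inj] at this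

/-- The dimension bound from a family `U` whose linear relations of coefficient sum zero are
constant. -/
theorem cocycle_bound [FiniteDimensional k V] {Ω : Type*} [Fintype Ω] (U : Ω → V)
    (h : ∀ f : Ω → k, ∑ x, f x = 0 → ∑ x, f x • U x = 0 → ∀ x y, f x = f y) :
    Fintype.card Ω ≤ finrank k V + 2 ∧
      ((Fintype.card Ω : k) ≠ 0 → Fintype.card Ω ≤ finrank k V + 1) := by
  classical
  let Φ : (Ω → k) →ₗ[k] V × k :=
    (Fintype.linearCombination k U).prod (Fintype.linearCombination k fun _ => (1 : k))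
  have hΦ : ∀ f, Φ f = 0 → ∑ x, f x = 0 ∧ ∀ x y, f x = f y := fun f hf => by
    have h1 : Fintype.linearCombination k U f = 0 := congrArg Prod.fst hf
    have h2 : Fintype.linearCombination k (fun _ => (1 : k)) f = 0 := congrArg Prod.snd hf
    simp only [Fintype.linearCombination_apply, smul_eq_mul, mul_one] at h1 h2
    exact ⟨h2, h f h2 h1⟩
  have h1 := Φ.finrank_range_add_finrank_ker
  have h2 := Submodule.finrank_le (LinearMap.range Φ)
  rw [finrank_prod, finrank_self] at h2
  rw [finrank_fintype_fun_eq_card] at h1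
  constructor
  · have h3 : LinearMap.ker Φ ≤ Submodule.span k {fun _ => (1 : k)} := fun f hf => by
      rw [Submodule.mem_span_singleton]
      rcases isEmpty_or_nonempty Ω with h0 | ⟨⟨x⟩⟩
      · exact ⟨0, Subsingleton.elim _ _⟩
      · exact ⟨f x, funext fun y => by simp [(hΦ f hf).2 x y]⟩
    have h4 := (Submodule.finrank_mono h3).trans (finrank_span_le_card _)
    simp only [Set.toFinset_singleton, Finset.card_singleton] at h4
    omega
  · intro h0
    have h3 : LinearMap.ker Φ = ⊥ := by
      rw [eq_bot_iff]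
      intro f hf
      obtain ⟨h4, h5⟩ := hΦ f hf
      funext x
      rw [Finset.sum_congr rfl (fun y _ => h5 y x), Finset.sum_const, Finset.card_univ,
        nsmul_eq_mul] at h4
      exact (mul_eq_zero.1 h4).resolve_left h0
    rw [h3, finrank_bot] at h1
    omega

end H82.AG
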