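import Cfsg.Agent.Lib.AltGL.Triv

/-! Degree bounds for the covers of `A₉`, `A₁₀`, `A₁₁` on modules on which some pair of disjoint
3-cycles does not satisfy `(s - 1)(t - 1) = 0`. -/

set_option autoImplicit false
set_option linter.style.haveILetI false

namespace H82.AG

open Equiv Equiv.Perm Module

variable {k V : Type*} [Field k] [AddCommGroup V] [Module k V]
variable {H : Type*} [Group H] {Ω : Type*} [DecidableEq Ω] [Fintype Ω]
variable {π : H →* Perm Ω} {ρ : H →* End k V}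

theorem Cx.comm_of (hx : Cx π) {a : H} (ha : Od a) (S : Finset Ω) (hS : ∀ x, x ∉ S → π a x = x)
    (g : H) (hg : ∀ x ∈ S, π g x = x) : g * a = a * g :=
  hx.comm ha (Perm.Disjoint.commute fun x => by
    by_cases h : x ∈ S
    · exact Or.inl (hg x h)
    · exact Or.inr (hS x h))

theorem Cx.rel (hx : Cx π) {a b g : H} (ha : Od a) (hb : Od b) {m : ℕ}
    (e : π a * π g = π g * π b ^ m) : a * g = g * b ^ m := by
  rw [← hx.conj_eq (g := g) (hb.pow m) ha (by rw [map_pow, ← e, mul_inv_cancel_right]),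
    inv_mul_cancel_right]

theorem reduce (hx : Cx π) (hnt : ¬ Tr π ρ) {Ω' : Type*} [DecidableEq Ω'] [Fintype Ω']
    (hc : Fintype.card Ω' ≤ Fintype.card Ω) {a' b' c' d' e' f' : Ω'}
    (hn' : [a', b', c', d', e', f'].Nodup) : ∃ (H' : Subgroup H) (π' : H' →* Perm Ω'), Cx π' ∧
      ∃ α β : H', π' α = cyc a' b' c' ∧ π' β = cyc d' e' f' ∧ Od α ∧ Od β ∧
        ¬ Z (ρ.comp H'.subtype) β α := by
  simp only [Tr, not_forall] at hnt
  obtain ⟨a, b, c, d, e, f, α, β, hn, ha, hb, oa, ob, hZ⟩ := hnt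
  obtain ⟨j0⟩ := Function.Embedding.nonempty_of_card_le hc
  obtain ⟨σ, hσ⟩ := Perm.exists_extending_pair (j0 ∘ [a', b', c', d', e', f'].get)
    (fun i : Fin 6 => [a, b, c, d, e, f].get i)
    (j0.injective.comp (List.nodup_iff_injective_get.1 hn')) (List.nodup_iff_injective_get.1 hn)
  obtain ⟨H', π', hx', h1, h2⟩ := hx.pull (j0.trans σ.toEmbedding)
  have ea : (j0.trans σ.toEmbedding) a' = a := hσ (0 : Fin 6)
  have eb : (j0.trans σ.toEmbedding) b' = b := hσ (1 : Fin 6)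
  have ec : (j0.trans σ.toEmbedding) c' = c := hσ (2 : Fin 6)
  have ed : (j0.trans σ.toEmbedding) d' = d := hσ (3 : Fin 6)
  have ee : (j0.trans σ.toEmbedding) e' = e := hσ (4 : Fin 6)
  have ef : (j0.trans σ.toEmbedding) f' = f := hσ (5 : Fin 6)
  generalize j0.trans σ.toEmbedding = j at *
  have h3 : α ∈ H' := h2 α fun x hx => by
    rw [ha, cyc_ne] <;> rintro rfl
    exacts [hx ⟨_, ea⟩, hx ⟨_, eb⟩, hx ⟨_, ec⟩]
  have h4 : β ∈ H' := h2 β fun x hx => by
    rw [hb, cyc_ne] <;> rintro rfl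
    exacts [hx ⟨_, ed⟩, hx ⟨_, ee⟩, hx ⟨_, ef⟩]
  refine ⟨H', π', hx', ⟨α, h3⟩, ⟨β, h4⟩, viaEmbeddingHom_injective j ?_,
    viaEmbeddingHom_injective j ?_, oa.sub h3, ob.sub h4, hZ⟩
  · rw [← h1, via_cyc, ea, eb, ec]; exact ha
  · rw [← h1, via_cyc, ed, ee, ef]; exact hb

theorem Wt.pow_eq {A : Type*} {x : A → H} {χ : A → k} (h : Wt (fun a => ρ (x a)) χ) {N : ℕ} {a : A}
    (e : x a ^ N = 1) : χ a ^ N = 1 := by
  obtain ⟨v, hv, h⟩ := h
  have : ∀ n : ℕ, ρ (x a ^ n) v = χ a ^ n • v := fun n => by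
    induction n with
    | zero => simp
    | succ n ih => rw [pow_succ, act_mul, h, map_smul, ih, smul_smul, pow_succ']
  have h1 := this N
  rw [e, map_one, End.one_apply] at h1
  exact smul_left_injective k hv (h1.symm.trans (one_smul k v).symm)

theorem Wt.step {A : Type*} {x : A → H} {N : ℕ} [NeZero N] {ω : k} (hω : ω ^ N = 1)
    (g : H) (τ : A → A) (m : A → Fin N) (hg : ∀ a, x a * g = g * x (τ a) ^ (m a : ℕ))
    (e : A → Fin N) (h : Wt (fun a => ρ (x a)) fun a => ω ^ (e a : ℕ)) :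
    Wt (fun a => ρ (x a)) fun a => ω ^ ((e (τ a) * m a : Fin N) : ℕ) := by
  obtain ⟨v, hv, h⟩ := h
  refine ⟨ρ g v, act_ne ρ g hv, fun a => ?_⟩
  have : ∀ n : ℕ, ρ (x (τ a) ^ n) v = (ω ^ (e (τ a) : ℕ)) ^ n • v := fun n => by
    induction n with
    | zero => simp
    | succ n ih => rw [pow_succ, act_mul, h, map_smul, ih, smul_smul, pow_succ']
  beta_reduce
  rw [← act_mul, hg, act_mul, this, map_smul, ← pow_mul, Fin.val_mul, ← pow_eq_pow_mod _ hω]

theorem iter {A : Type*} (P : A → Prop) {f : A → A} (h : ∀ a, P a → P (f a)) (n : ℕ) {a : A}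
    (ha : P a) : P (f^[n] a) := by
  induction n with
  | zero => exact ha
  | succ n ih => rw [Function.iterate_succ_apply']; exact h _ ih

variable [FiniteDimensional k V]

theorem orbit_bound {A ι : Type*} [Finite ι] (x : A → End k V) {N : ℕ} {ω : k}
    (hω : IsPrimitiveRoot ω N) (E : ι → A → Fin N) (hE : Function.Injective E)
    (h : ∀ i, Wt x fun a => ω ^ (E i a : ℕ)) : Nat.card ι ≤ finrank k V :=
  card_le_of_wt x _ h fun i j e => hE (funext fun a =>
    Fin.ext (hω.pow_inj (E i a).2 (E j a).2 (congrFun e a)))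

variable [IsAlgClosed k]

theorem wt_start {A : Type*} (x : A → H) (hc : ∀ a b, x a * x b = x b * x a) {N : ℕ} [Fact N.Prime]
    (hN : (N : k) ≠ 0) (hx : ∀ a, x a ^ N = 1) {a b : A} (hZ : ¬ Z ρ (x b) (x a)) :
    ∃ (ω : k) (e : A → Fin N), IsPrimitiveRoot ω N ∧ (e a : ℕ) = 1 ∧ (e b : ℕ) ≠ 0 ∧
      Wt (fun a => ρ (x a)) fun a => ω ^ (e a : ℕ) := by
  have hN0 : NeZero N := ⟨(Fact.out : N.Prime).ne_zero⟩
  obtain ⟨χ, h1, h2, h3⟩ : ∃ χ, Wt (fun a => ρ (x a)) χ ∧ χ a ≠ 1 ∧ χ b ≠ 1 := by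
    by_contra hcon
    push Not at hcon
    have := eq_zero_of_wt (fun a => ρ (x a)) (fun a b => Commute.map (hc a b) ρ) hN
      (fun a => by rw [← map_pow, hx, map_one]) ((ρ (x b) - 1) * (ρ (x a) - 1)) fun χ v hv => by
        by_cases h0 : v = 0
        · simp [h0]
        simp only [End.mul_apply, LinearMap.sub_apply, End.one_apply, hv, map_sub, map_smul]
        by_cases h1 : χ a = 1
        · simp [h1]
        · simp [hcon χ ⟨v, h0, hv⟩ h1]
    refine hZ fun v => ?_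
    have h2 := LinearMap.congr_fun this v
    simp only [End.mul_apply, LinearMap.sub_apply, End.one_apply, LinearMap.zero_apply] at h2
    exact sub_eq_zero.1 h2
  have hω : IsPrimitiveRoot (χ a) N := by
    rw [← orderOf_eq_prime (h1.pow_eq (hx a)) h2]; exact IsPrimitiveRoot.orderOf _
  have h4 : ∀ c, ∃ i : Fin N, χ a ^ (i : ℕ) = χ c := fun c => by
    obtain ⟨i, hi, e⟩ := hω.eq_pow_of_pow_eq_one (h1.pow_eq (hx c))
    exact ⟨⟨i, hi⟩, e⟩
  choose e he using h4
  refine ⟨χ a, e, hω, hω.pow_inj (e a).2 (Fact.out : N.Prime).one_lt (by rw [he, pow_one]),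
    fun h => h3 (by rw [← he b, h, pow_zero]), ?_⟩
  simpa only [he] using h1

theorem case_three {π : H →* Perm (Fin 9)} (hx : Cx π) (h3 : ((3 : ℕ) : k) ≠ 0) {α β : H}
    (ha : π α = cyc 0 1 2) (hb : π β = cyc 3 4 5) (oa : Od α) (ob : Od β) (hZ : ¬ Z ρ β α) :
    8 ≤ finrank k V := by
  obtain ⟨γ, hc, oc⟩ := hx.exists_cyc (a := 6) (b := 7) (c := 8) (by decide) (by decide) (by decide)
  have hπ : ∀ a, π (![α, β, γ] a) = ![cyc 0 1 2, cyc 3 4 5, cyc 6 7 8] a := fun a => by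
    fin_cases a; exacts [ha, hb, hc]
  have ho : ∀ a, Od (![α, β, γ] a) := fun a => by fin_cases a; exacts [oa, ob, oc]
  have : Fact (Nat.Prime 3) := ⟨by decide⟩
  obtain ⟨ω, e, hω, e0, e1, hW⟩ := wt_start (ρ := ρ) ![α, β, γ]
    (fun a b => hx.comm (ho b) (by rw [hπ, hπ]; revert a b; decide +kernel)) h3
    (fun a => hx.pow_eq (ho a) (by rw [hπ]; revert a; decide +kernel)) (a := 0) (b := 1) hZ
  obtain ⟨g1, hg1⟩ := hx.surj (swap 3 6 * cyc 4 8 5 * swap 5 7) (by decide +kernel)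
  obtain ⟨g2, hg2⟩ := hx.surj (swap 1 2 * swap 4 5) (by decide +kernel)
  have s1 := Wt.step (ρ := ρ) (x := ![α, β, γ]) hω.pow_eq_one g1 ![0, 2, 1] ![1, 1, 2]
    (fun a => hx.rel (ho _) (ho _) (by rw [hπ, hπ, hg1]; revert a; decide +kernel))
  have s2 := Wt.step (ρ := ρ) (x := ![α, β, γ]) hω.pow_eq_one g2 id ![2, 2, 1]
    (fun a => hx.rel (ho _) (ho _) (by rw [hπ, hπ, hg2]; revert a; decide +kernel))
  have := orbit_bound (fun a => ρ (![α, β, γ] a)) hω (fun t : Fin 4 × Fin 2 =>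
    (fun (e : Fin 3 → Fin 3) a => e (![0, 2, 1] a) * ![1, 1, 2] a)^[t.1]
      ((fun (e : Fin 3 → Fin 3) a => e a * ![2, 2, 1] a)^[t.2] e))
    (by clear hW; revert e; decide +kernel)
    (fun t => iter (fun e : Fin 3 → Fin 3 => Wt _ fun a => ω ^ (e a : ℕ)) s1 _
      (iter (fun e : Fin 3 → Fin 3 => Wt _ fun a => ω ^ (e a : ℕ)) s2 _ hW))
  simpa using this

theorem case_five {π : H →* Perm (Fin 10)} (hx : Cx π) (h5 : ((5 : ℕ) : k) ≠ 0) {α β : H}
    (ha : π α = cyc 0 1 2) (hb : π β = cyc 3 4 5) (oa : Od α) (ob : Od β) (hZ : ¬ Z ρ β α) :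
    16 ≤ finrank k V := by
  obtain ⟨s, hs, os⟩ := hx.exists_od (σ := cyc 0 1 2 * cyc 2 6 7) (by decide +kernel)
    (by decide : Odd 5) (by decide +kernel)
  obtain ⟨t, ht, ot⟩ := hx.exists_od (σ := cyc 3 4 5 * cyc 5 8 9) (by decide +kernel)
    (by decide : Odd 5) (by decide +kernel)
  have hπ : ∀ a, π (![s, t] a) = ![cyc 0 1 2 * cyc 2 6 7, cyc 3 4 5 * cyc 5 8 9] a := fun a => by
    fin_cases a; exacts [hs, ht]
  have ho : ∀ a, Od (![s, t] a) := fun a => by fin_cases a; exacts [os, ot]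
  have hZ' : ¬ Z ρ t s := fun h => by
    have h1 := hx.spread {0, 1, 2, 6, 7} (by decide) (hx.comm_of os _ (by rw [hs]; decide +kernel))
      (by rw [ht]; decide +kernel) (by rw [ht]; decide +kernel) h (by rw [hb]; decide +kernel) ob
    have h2 := hx.spread {3, 4, 5} (by decide) (hx.comm_of ob _ (by rw [hb]; decide +kernel))
      (by rw [hs]; decide +kernel) (by rw [hs]; decide +kernel)
      (h1.symm (hx.comm ob (by rw [hb, hs]; decide +kernel))) (by rw [ha]; decide +kernel) oa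
    exact hZ (h2.symm (hx.comm oa (by rw [hb, ha]; decide +kernel)))
  have : Fact (Nat.Prime 5) := ⟨by decide⟩
  obtain ⟨ω, e, hω, e0, e1, hW⟩ := wt_start (ρ := ρ) ![s, t]
    (fun a b => hx.comm (ho b) (by rw [hπ, hπ]; revert a b; decide +kernel)) h5
    (fun a => hx.pow_eq (ho a) (by rw [hπ]; revert a; decide +kernel)) (a := 0) (b := 1) hZ'
  obtain ⟨g1, hg1⟩ := hx.surj (c[3, 0] * c[4, 1, 8, 6, 9, 7, 5, 2]) (by decide +kernel)
  obtain ⟨g2, hg2⟩ := hx.surj (swap 1 7 * swap 2 6) (by decide +kernel)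
  have s1 := Wt.step (ρ := ρ) (x := ![s, t]) hω.pow_eq_one g1 ![1, 0] ![1, 2]
    (fun a => hx.rel (ho _) (ho _) (by rw [hπ, hπ, hg1]; revert a; decide +kernel))
  have s2 := Wt.step (ρ := ρ) (x := ![s, t]) hω.pow_eq_one g2 id ![4, 1]
    (fun a => hx.rel (ho _) (ho _) (by rw [hπ, hπ, hg2]; revert a; decide +kernel))
  have := orbit_bound (fun a => ρ (![s, t] a)) hω (fun t : Fin 8 × Fin 2 =>
    (fun (e : Fin 2 → Fin 5) a => e (![1, 0] a) * ![1, 2] a)^[t.1]
      ((fun (e : Fin 2 → Fin 5) a => e a * ![4, 1] a)^[t.2] e))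
    (by clear hW; revert e; decide +kernel)
    (fun t => iter (fun e : Fin 2 → Fin 5 => Wt _ fun a => ω ^ (e a : ℕ)) s1 _
      (iter (fun e : Fin 2 → Fin 5 => Wt _ fun a => ω ^ (e a : ℕ)) s2 _ hW))
  simpa using this

theorem case_cyc (hx : Cx π) (h9 : 9 ≤ Fintype.card Ω) {s e : ℕ} [Fact s.Prime] (hs : (s : k) ≠ 0)
    (he : ∀ i ∈ Finset.Ico 1 s, ∃ t < s, e ^ t % s = i) {a b c d x y z : Ω}
    (hn : [a, b, c, d, x, y, z].Nodup) {α β σ g : H} (ha : π α = cyc a b c) (hb : π β = cyc x y z)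
    (oa : Od α) (ob : Od β) (os : Od σ) (hσ : π σ ^ s = 1) (hσ1 : π σ ≠ 1)
    (hF : ∀ w ∈ ({a, b, c, d} : Finset Ω), π σ w = w) (hg : π σ * π g = π g * π σ ^ e)
    (hZ : ¬ Z ρ β α) : (s - 1) * 2 ≤ finrank k V := by
  classical
  have hN0 : NeZero s := ⟨(Fact.out : s.Prime).ne_zero⟩
  by_contra hlt
  simp only [List.nodup_cons, List.mem_cons, List.not_mem_nil, or_false, not_or,
    not_false_eq_true, List.nodup_nil, and_true] at hn
  obtain ⟨⟨ab, ac, ad, ax, ay, az⟩, ⟨bc, bd, bx, by', bz⟩, ⟨cd, cx, cy, cz⟩, ⟨dx, dy, dz⟩,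
    ⟨xy, xz⟩, yz⟩ := hn
  obtain ⟨γ, hc, oc⟩ := hx.exists_cyc ab ad bd
  have c1 := hx.comm_of oa {a, b, c, d} fun w hw => by
    simp only [Finset.mem_insert, Finset.mem_singleton, not_or] at hw
    rw [ha, cyc_ne hw.1 hw.2.1 hw.2.2.1]
  have c2 := hx.comm_of oc {a, b, c, d} fun w hw => by
    simp only [Finset.mem_insert, Finset.mem_singleton, not_or] at hw
    rw [hc, cyc_ne hw.1 hw.2.1 hw.2.2.2]
  have c3 := hx.comm_of ob {x, y, z} fun w hw => by
    simp only [Finset.mem_insert, Finset.mem_singleton, not_or] at hw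
    rw [hb, cyc_ne hw.1 hw.2.1 hw.2.2]
  have c4 : ∀ g, (∀ w ∈ ({a, b, c, d} : Finset Ω), π g w = w) →
      g * ((γ * α)⁻¹ * (α * γ)) = (γ * α)⁻¹ * (α * γ) * g := fun g hg =>
    (Commute.mul_right (Commute.mul_right (c2 g hg) (c1 g hg)).inv_right
      (Commute.mul_right (c1 g hg) (c2 g hg)) :)
  have f1 : ∀ w ∈ ({x, y, z} : Finset Ω), π α w = w := by
    simp [ha, cyc_ne, Ne.symm ax, Ne.symm ay, Ne.symm az, Ne.symm bx, Ne.symm by', Ne.symm bz,
      Ne.symm cx, Ne.symm cy, Ne.symm cz]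
  have f2 : ∀ w ∈ ({x, y, z} : Finset Ω), π γ w = w := by
    simp [hc, cyc_ne, Ne.symm ax, Ne.symm ay, Ne.symm az, Ne.symm bx, Ne.symm by', Ne.symm bz,
      Ne.symm dx, Ne.symm dy, Ne.symm dz]
  have f3 : ∀ w ∈ ({a, b, c, d} : Finset Ω), π β w = w := by
    simp [hb, cyc_ne, ax, ay, az, bx, by', bz, cx, cy, cz, dx, dy, dz]
  have f4 : ∀ w ∈ ({x, y, z} : Finset Ω), π ((γ * α)⁻¹ * (α * γ)) w = w := fun w hw => by
    rw [map_mul, map_inv, mul_apply, Perm.inv_eq_iff_eq, map_mul, map_mul, mul_apply, mul_apply,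
      f1 w hw, f2 w hw, f1 w hw]
  have hu : π ((γ * α)⁻¹ * (α * γ)) ≠ 1 := fun h6 => by
    rw [map_mul, map_inv, inv_mul_eq_one, map_mul, map_mul, ha, hc] at h6
    have h7 := congrArg (fun σ : Perm Ω => σ a) h6
    simp only [mul_apply] at h7
    rw [cyc_a ab bc, cyc_a ab bd, cyc_b, cyc_b] at h7
    exact cd h7.symm
  have hσs := hx.pow_eq os hσ
  have h1 : Z ρ ((γ * α)⁻¹ * (α * γ)) σ := by
    have := eq_zero_of_wt (fun _ : Unit => ρ σ) (fun _ _ => Commute.refl _) hs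
      (fun a => by rw [← map_pow, hσs, map_one]) ((ρ ((γ * α)⁻¹ * (α * γ)) - 1) * (ρ σ - 1))
      fun χ v hv => by
        replace hv := hv ()
        generalize χ () = μ at hv
        by_cases h0 : v = 0
        · simp [h0]
        simp only [End.mul_apply, LinearMap.sub_apply, End.one_apply, hv, map_sub, map_smul]
        by_cases h1 : μ = 1
        · simp [h1]
        have hμ : IsPrimitiveRoot μ s := by
          rw [← orderOf_eq_prime (Wt.pow_eq (ρ := ρ) (x := fun _ : Unit => σ) (χ := fun _ => μ)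
            ⟨v, h0, fun _ => hv⟩ (a := ()) hσs) h1]
          exact IsPrimitiveRoot.orderOf _
        have h2 : finrank k ((ρ σ).eigenspace μ) ≤ 1 := by
          by_contra h2
          have h3 : ∀ t, 2 ≤ finrank k ((ρ σ).eigenspace (μ ^ e ^ t)) := fun t => by
            induction t with
            | zero => rw [pow_zero, pow_one]; omega
            | succ t ih =>
              rw [pow_succ, pow_mul]
              exact ih.trans (eig_le (g := ρ g⁻¹) (g' := ρ g) (by rw [← map_mul]; simp)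
                (by rw [← map_pow, ← map_mul, ← map_mul, hx.rel os os hg]) _)
          have h4 := eig_sum (ρ σ) ((Finset.Ico 1 s).image (μ ^ ·)) 2 fun ν hν => by
            obtain ⟨i, hi, rfl⟩ := Finset.mem_image.1 hν
            obtain ⟨t, -, rfl⟩ := he i hi
            rw [← pow_eq_pow_mod _ hμ.pow_eq_one]
            exact h3 t
          rw [Finset.card_image_of_injOn fun i hi j hj e => hμ.pow_inj
            (Finset.mem_Ico.1 hi).2 (Finset.mem_Ico.1 hj).2 e, Nat.card_Ico] at h4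
          exact hlt h4
        have h3 : ∀ h, σ * h = h * σ → ∃ c : k, ρ h v = c • v := fun h hh => by
          obtain ⟨w, hw⟩ := finrank_le_one_iff.1 h2
          obtain ⟨c1, e1⟩ := hw ⟨v, End.mem_eigenspace_iff.2 hv⟩
          obtain ⟨c2, e2⟩ := hw ⟨ρ h v, End.mem_eigenspace_iff.2 (by
            rw [← act_mul, hh, act_mul, hv, map_smul])⟩
          replace e1 : c1 • (w : V) = v := congrArg Subtype.val e1
          replace e2 : c2 • (w : V) = ρ h v := congrArg Subtype.val e2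
          have : c1 ≠ 0 := fun e => h0 (by rw [← e1, e, zero_smul])
          exact ⟨c2 / c1, by rw [← e2, ← e1, smul_smul, div_mul_cancel₀ _ this]⟩
        obtain ⟨p, hp⟩ := h3 α (c1 σ hF)
        obtain ⟨q, hq⟩ := h3 γ (c2 σ hF)
        have h4 : ρ ((γ * α)⁻¹ * (α * γ)) v = v := by
          rw [act_mul, show ρ (α * γ) v = ρ (γ * α) v by
            rw [act_mul, act_mul, hp, hq, map_smul, map_smul, hp, hq, smul_comm], act_inv]
        rw [h4]; simp
    intro v
    have h2 := LinearMap.congr_fun this v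
    simp only [End.mul_apply, LinearMap.sub_apply, End.one_apply, LinearMap.zero_apply] at h2
    exact sub_eq_zero.1 h2
  have h2 := hx.spread {a, b, c, d} (by have := Finset.card_le_four (a := a) (b := b) (c := c) (d := d); omega)
    c4 hF hσ1 (h1.symm (c4 σ hF)) f3 ob
  have h3 := hx.spread {x, y, z} (by have := Finset.card_le_three (a := x) (b := y) (c := z); omega)
    c3 f4 hu (h2.symm (c4 β f3).symm) f1 oa
  exact hZ (h3.symm (c3 α f1).symm)

theorem case_nine {π : H →* Perm (Fin 9)} (hx : Cx π) (h5 : ((5 : ℕ) : k) ≠ 0) {α β : H}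
    (ha : π α = cyc 0 1 2) (hb : π β = cyc 3 4 5) (oa : Od α) (ob : Od β) (hZ : ¬ Z ρ β α) :
    8 ≤ finrank k V := by
  have : Fact (Nat.Prime 5) := ⟨by decide⟩
  obtain ⟨σ, hs, os⟩ := hx.exists_od (σ := c[3, 4, 5, 7, 8]) (by decide +kernel)
    (by decide : Odd 5) (by decide +kernel)
  obtain ⟨g, hg⟩ := hx.surj (swap 0 1 * c[5, 4, 7, 8]) (by decide +kernel)
  exact case_cyc hx (by simp) h5 (e := 2) (by decide) (d := 6) (by decide) ha hb oa ob os
    (by rw [hs]; decide +kernel) (by rw [hs]; decide +kernel) (by rw [hs]; decide +kernel)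
    (g := g) (by rw [hs, hg]; decide +kernel) hZ

theorem case_eleven {π : H →* Perm (Fin 11)} (hx : Cx π) (h7 : ((7 : ℕ) : k) ≠ 0) {α β : H}
    (ha : π α = cyc 0 1 2) (hb : π β = cyc 3 4 5) (oa : Od α) (ob : Od β) (hZ : ¬ Z ρ β α) :
    12 ≤ finrank k V := by
  have : Fact (Nat.Prime 7) := ⟨by decide⟩
  obtain ⟨σ, hs, os⟩ := hx.exists_od (σ := c[3, 4, 5, 7, 8, 9, 10]) (by decide +kernel)
    (by decide : Odd 7) (by decide +kernel)
  obtain ⟨g, hg⟩ := hx.surj (swap 0 1 * c[7, 4, 9, 8, 10, 5]) (by decide +kernel)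
  exact case_cyc hx (by simp) h7 (e := 3) (by decide) (d := 6) (by decide) ha hb oa ob os
    (by rw [hs]; decide +kernel) (by rw [hs]; decide +kernel) (by rw [hs]; decide +kernel)
    (g := g) (by rw [hs, hg]; decide +kernel) hZ

theorem small_bound (hx : Cx π) (hnt : ¬ Tr π ρ) (p : ℕ) [Fact p.Prime] [CharP k p]
    (h9 : 9 ≤ Fintype.card Ω) (h11 : Fintype.card Ω ≤ 11) :
    Fintype.card Ω - 1 - (if p ∣ Fintype.card Ω then 1 else 0) ≤ finrank k V := by
  have hq : ∀ q : ℕ, q.Prime → p ≠ q → (q : k) ≠ 0 := fun q h1 h2 h3 =>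
    h2 ((Nat.prime_dvd_prime_iff_eq Fact.out h1).1 ((CharP.cast_eq_zero_iff k p q).1 h3))
  by_cases h5 : p = 5
  · by_cases h : Fintype.card Ω = 11
    · obtain ⟨H', π', hx', α, β, h1⟩ := reduce hx hnt (Ω' := Fin 11) (by simp [h])
        (by decide : [(0 : Fin 11), 1, 2, 3, 4, 5].Nodup)
      have := case_eleven hx' (hq 7 (by decide) (by omega)) h1.1 h1.2.1 h1.2.2.1 h1.2.2.2.1
        h1.2.2.2.2
      omega
    · obtain ⟨H', π', hx', α, β, h1⟩ := reduce hx hnt (Ω' := Fin 9) (by simpa using h9)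
        (by decide : [(0 : Fin 9), 1, 2, 3, 4, 5].Nodup)
      have := case_three hx' (hq 3 (by decide) (by omega)) h1.1 h1.2.1 h1.2.2.1 h1.2.2.2.1
        h1.2.2.2.2
      split_ifs with h2
      · omega
      · have : Fintype.card Ω ≠ 10 := fun e => h2 (by rw [e, h5]; decide)
        omega
  · by_cases h : Fintype.card Ω = 9
    · obtain ⟨H', π', hx', α, β, h1⟩ := reduce hx hnt (Ω' := Fin 9) (by simpa using h9)
        (by decide : [(0 : Fin 9), 1, 2, 3, 4, 5].Nodup)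
      have := case_nine hx' (hq 5 (by decide) h5) h1.1 h1.2.1 h1.2.2.1 h1.2.2.2.1 h1.2.2.2.2
      omega
    · obtain ⟨H', π', hx', α, β, h1⟩ := reduce hx hnt (Ω' := Fin 10) (by simp; omega)
        (by decide : [(0 : Fin 10), 1, 2, 3, 4, 5].Nodup)
      have := case_five hx' (hq 5 (by decide) h5) h1.1 h1.2.1 h1.2.2.1 h1.2.2.2.1 h1.2.2.2.2
      omega

end H82.AG
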