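import Mathlib
import Cfsg.Agent.Lib.Pres.Carm

/-! Central extensions of alternating groups with kernel of exponent 2: odd order lifts. -/

set_option autoImplicit false
set_option linter.style.haveILetI false

namespace H82.AG

open Equiv Equiv.Perm

section Cyc
variable {Ω : Type*} [DecidableEq Ω]

/-- the 3-cycle `(a b c)` -/
def cyc (a b c : Ω) : Perm Ω := swap a c * swap a b

variable {a b c : Ω}

theorem cyc_a (hab : a ≠ b) (hbc : b ≠ c) : cyc a b c a = b := by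
  simp [cyc, swap_apply_def, hab.symm, hbc]

theorem cyc_b : cyc a b c b = c := by simp [cyc]

theorem cyc_c (hac : a ≠ c) (hbc : b ≠ c) : cyc a b c c = a := by
  simp [cyc, swap_apply_def, hac.symm, hbc.symm]

theorem cyc_ne {x : Ω} (ha : x ≠ a) (hb : x ≠ b) (hc : x ≠ c) : cyc a b c x = x := by
  simp [cyc, swap_apply_def, ha, hb, hc]

theorem cyc_conj (g : Perm Ω) (a b c : Ω) : g * cyc a b c * g⁻¹ = cyc (g a) (g b) (g c) := by
  rw [cyc, cyc, swap_apply_apply, swap_apply_apply]; group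

theorem cyc_pow (hab : a ≠ b) (hac : a ≠ c) (hbc : b ≠ c) : cyc a b c ^ 3 = 1 := by
  ext x
  rw [pow_three, mul_apply, mul_apply, one_apply]
  by_cases h1 : x = a
  · rw [h1, cyc_a hab hbc, cyc_b, cyc_c hac hbc]
  by_cases h2 : x = b
  · rw [h2, cyc_b, cyc_c hac hbc, cyc_a hab hbc]
  by_cases h3 : x = c
  · rw [h3, cyc_c hac hbc, cyc_a hab hbc, cyc_b]
  rw [cyc_ne h1 h2 h3, cyc_ne h1 h2 h3, cyc_ne h1 h2 h3]

theorem cyc_rot (hab : a ≠ b) (hac : a ≠ c) (hbc : b ≠ c) : cyc b c a = cyc a b c := by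
  ext x
  by_cases h1 : x = a
  · rw [h1, cyc_a hab hbc, cyc_c hab.symm hac.symm]
  by_cases h2 : x = b
  · rw [h2, cyc_b, cyc_a hbc hac.symm]
  by_cases h3 : x = c
  · rw [h3, cyc_c hac hbc, cyc_b]
  rw [cyc_ne h1 h2 h3, cyc_ne h2 h3 h1]

theorem sign_cyc [Fintype Ω] (hab : a ≠ b) (hac : a ≠ c) : sign (cyc a b c) = 1 := by
  simp [cyc, hab, hac]

theorem exists_even [Fintype Ω] {A : Type*} [Fintype A] (f g : A → Ω) (hf : Function.Injective f)
    (hg : Function.Injective g) (h : Fintype.card A + 2 ≤ Fintype.card Ω) :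
    ∃ σ : Perm Ω, sign σ = 1 ∧ ∀ a, σ (f a) = g a := by
  obtain ⟨σ, hσ⟩ := Perm.exists_extending_pair f g hf hg
  rcases Int.units_eq_one_or (sign σ) with h1 | h1
  · exact ⟨σ, h1, hσ⟩
  · have h2 : 1 < (Finset.univ.image g)ᶜ.card := by
      have := Finset.card_image_le (s := Finset.univ) (f := g)
      rw [Finset.card_compl, Finset.card_univ] at *
      omega
    obtain ⟨x, hx, y, hy, hxy⟩ := Finset.one_lt_card.1 h2
    refine ⟨swap x y * σ, by rw [map_mul, h1, sign_swap hxy]; simp, fun a => ?_⟩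
    rw [mul_apply, hσ, swap_apply_of_ne_of_ne]
    · rintro e; simp [← e] at hx
    · rintro e; simp [← e] at hy

theorem exists_notMem [Fintype Ω] (s : Finset Ω) (h : s.card < Fintype.card Ω) : ∃ x, x ∉ s := by
  by_contra hc
  push Not at hc
  rw [Finset.eq_univ_iff_forall.2 hc, Finset.card_univ] at h
  exact lt_irrefl _ h

theorem exists_notMem_list [Fintype Ω] (l : List Ω) (h : l.length < Fintype.card Ω) :
    ∃ x, x ∉ l := by
  obtain ⟨x, hx⟩ := exists_notMem l.toFinset ((List.toFinset_card_le l).trans_lt h)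
  exact ⟨x, by simpa using hx⟩

variable {Ω' : Type*} [DecidableEq Ω']

theorem via_swap (e : Ω' ↪ Ω) (a b : Ω') : viaEmbeddingHom e (swap a b) = swap (e a) (e b) := by
  ext x
  by_cases hx : x ∈ Set.range e
  · obtain ⟨y, rfl⟩ := hx
    rw [viaEmbeddingHom_apply, viaEmbedding_apply, e.injective.swap_apply]
  · rw [viaEmbeddingHom_apply, viaEmbedding_apply_of_notMem _ _ _ hx, swap_apply_of_ne_of_ne]
    · rintro rfl; exact hx ⟨_, rfl⟩
    · rintro rfl; exact hx ⟨_, rfl⟩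

theorem via_cyc (e : Ω' ↪ Ω) (a b c : Ω') :
    viaEmbeddingHom e (cyc a b c) = cyc (e a) (e b) (e c) := by
  rw [cyc, map_mul, via_swap, via_swap, cyc]

theorem sign_via [Fintype Ω] [Fintype Ω'] (e : Ω' ↪ Ω) (σ : Perm Ω') :
    sign (viaEmbeddingHom e σ) = sign σ := by
  induction σ using swap_induction_on with
  | one => simp
  | swap_mul f x y hxy ih =>
    rw [map_mul, map_mul, map_mul, ih, via_swap, sign_swap hxy, sign_swap (e.injective.ne hxy)]

omit [DecidableEq Ω] [DecidableEq Ω'] in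
theorem mem_range_via (e : Ω' ↪ Ω) {σ : Perm Ω} (h : ∀ x, x ∉ Set.range e → σ x = x) :
    σ ∈ (viaEmbeddingHom e).range := by
  have h1 : ∀ y, σ (e y) ∈ Set.range e := fun y => by
    by_contra hc
    exact hc ⟨y, (σ.injective (h _ hc)).symm⟩
  have h2 : ∀ y, σ⁻¹ (e y) ∈ Set.range e := fun y => by
    by_contra hc
    have := h _ hc
    rw [Perm.inv_def, apply_symm_apply] at this
    exact hc ⟨y, this⟩
  choose f hf using h1
  choose g hg using h2
  refine ⟨⟨f, g, fun y => e.injective (by rw [hg, hf]; simp), fun y => e.injective (by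
    rw [hf, hg]; simp)⟩, ?_⟩
  ext x
  by_cases hx : x ∈ Set.range e
  · obtain ⟨y, rfl⟩ := hx
    rw [viaEmbeddingHom_apply, viaEmbedding_apply]
    exact hf y
  · rw [viaEmbeddingHom_apply, viaEmbedding_apply_of_notMem _ _ _ hx, h x hx]

end Cyc

variable {H : Type*} [Group H] {Ω : Type*} [DecidableEq Ω] [Fintype Ω]

/-- `a` has odd order. -/
def Od (a : H) : Prop := ∃ m : ℕ, Odd m ∧ a ^ m = 1

theorem Od.conj {a : H} (h : Od a) (g : H) : Od (g * a * g⁻¹) := by
  obtain ⟨m, hm, e⟩ := h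
  exact ⟨m, hm, by rw [conj_pow, e]; group⟩

theorem Od.pow {a : H} (h : Od a) (n : ℕ) : Od (a ^ n) := by
  obtain ⟨m, hm, e⟩ := h
  exact ⟨m, hm, by rw [← pow_mul, mul_comm, pow_mul, e, one_pow]⟩

theorem Od.map {H' : Type*} [Group H'] {a : H} (h : Od a) (f : H →* H') : Od (f a) := by
  obtain ⟨m, hm, e⟩ := h
  exact ⟨m, hm, by rw [← map_pow, e, map_one]⟩

theorem Od.sub {a : H} (h : Od a) {P : Subgroup H} (ha : a ∈ P) : Od (⟨a, ha⟩ : P) := by
  obtain ⟨m, hm, e⟩ := h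
  exact ⟨m, hm, Subtype.ext e⟩

theorem od_one : Od (1 : H) := ⟨1, odd_one, one_pow _⟩

theorem Od.mem_of_sq {a : H} (h : Od a) {P : Subgroup H} (ha : a * a ∈ P) : a ∈ P := by
  obtain ⟨_, ⟨m, rfl⟩, e⟩ := h
  have := pow_mem ha (m + 1)
  rwa [← pow_two, ← pow_mul, show 2 * (m + 1) = 2 * m + 1 + 1 by ring, pow_succ, e, one_mul] at this

/-- A central extension of the alternating group with kernel of exponent two. -/
structure Cx (π : H →* Perm Ω) : Prop where
  ev : ∀ h, sign (π h) = 1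
  surj : ∀ σ, sign σ = 1 → ∃ h, π h = σ
  cen : ∀ z, π z = 1 → ∀ g, z * g = g * z
  sq : ∀ z, π z = 1 → z * z = 1

namespace Cx

variable {π : H →* Perm Ω} (hx : Cx π)
include hx

theorem sq_eq {a b : H} (e : π a = π b) : a * a = b * b := by
  have hz : π (b⁻¹ * a) = 1 := by rw [map_mul, map_inv, e, inv_mul_cancel]
  calc a * a = b * (b⁻¹ * a * b) * (b⁻¹ * a) := by group
    _ = b * b * (b⁻¹ * a * (b⁻¹ * a)) := by rw [hx.cen _ hz b]; group
    _ = _ := by rw [hx.sq _ hz, mul_one]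

theorem mem_of_od {a b : H} (ha : Od a) {P : Subgroup H} (hb : b ∈ P) (e : π a = π b) : a ∈ P :=
  ha.mem_of_sq (by rw [hx.sq_eq e]; exact mul_mem hb hb)

theorem uniq {a b : H} (ha : Od a) (hb : Od b) (e : π a = π b) : a = b := by
  obtain ⟨m, hm, e1⟩ := ha
  obtain ⟨n, hn, e2⟩ := hb
  obtain ⟨t, ht⟩ := hm.mul hn
  have h1 : a ^ (m * n + 1) = a := by rw [pow_succ, pow_mul, e1, one_pow, one_mul]
  have h2 : b ^ (m * n + 1) = b := by rw [pow_succ, mul_comm m, pow_mul, e2, one_pow, one_mul]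
  rw [← h1, ← h2, ht, show 2 * t + 1 + 1 = 2 * (t + 1) by ring, pow_mul, pow_mul, pow_two, pow_two,
    hx.sq_eq e]

theorem exists_od {σ : Perm Ω} (hs : sign σ = 1) {m : ℕ} (hm : Odd m) (e : σ ^ m = 1) :
    ∃ a, π a = σ ∧ Od a := by
  obtain ⟨h, rfl⟩ := hx.surj σ hs
  refine ⟨h ^ (m + 1), by rw [map_pow, pow_succ, e, one_mul], m, hm, ?_⟩
  obtain ⟨t, rfl⟩ := hm
  rw [← pow_mul, mul_comm, pow_mul, show 2 * t + 1 + 1 = 2 * (t + 1) by ring, pow_mul, pow_two,
    hx.sq _ (by rw [map_pow, e]), one_pow]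

theorem exists_cyc {a b c : Ω} (hab : a ≠ b) (hac : a ≠ c) (hbc : b ≠ c) :
    ∃ α, π α = cyc a b c ∧ Od α :=
  hx.exists_od (sign_cyc hab hac) (by decide : Odd 3) (cyc_pow hab hac hbc)

theorem pow_eq {a : H} (ha : Od a) {m : ℕ} (e : π a ^ m = 1) : a ^ m = 1 :=
  hx.uniq (ha.pow m) od_one (by rw [map_pow, e, map_one])

theorem conj_eq {a b g : H} (ha : Od a) (hb : Od b) (e : π g * π a * (π g)⁻¹ = π b) :
    g * a * g⁻¹ = b :=
  hx.uniq (ha.conj g) hb (by rw [map_mul, map_mul, map_inv, e])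

theorem comm {a g : H} (ha : Od a) (e : π g * π a = π a * π g) : g * a = a * g := by
  rw [← mul_inv_eq_iff_eq_mul]
  exact hx.conj_eq ha ha (by rw [e, mul_inv_cancel_right])

theorem pull {Ω' : Type*} [DecidableEq Ω'] [Fintype Ω'] (e : Ω' ↪ Ω) :
    ∃ (H' : Subgroup H) (π' : H' →* Perm Ω'), Cx π' ∧
      (∀ h : H', π h = viaEmbeddingHom e (π' h)) ∧
      ∀ h, (∀ x, x ∉ Set.range e → π h x = x) → h ∈ H' := by
  let j := viaEmbeddingHom e
  have hj : Function.Injective j := viaEmbeddingHom_injective e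
  let Z : Subgroup H := j.range.comap π
  let ψ : Z →* Perm Ω' := (MonoidHom.ofInjective hj).symm.toMonoidHom.comp
    ((π.comp Z.subtype).codRestrict j.range fun z => z.2)
  have hψ : ∀ z, j (ψ z) = π z := fun z => by
    have := (MonoidHom.ofInjective hj).apply_symm_apply ⟨π z, z.2⟩
    exact congrArg Subtype.val this
  refine ⟨Z, ψ, ⟨fun h => ?_, fun σ hσ => ?_, fun z hz g => ?_, fun z hz => ?_⟩,
    fun h => (hψ h).symm, fun h hh => mem_range_via e hh⟩
  · rw [← sign_via e, hψ, hx.ev]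
  · obtain ⟨h, hh⟩ := hx.surj (j σ) (by rw [sign_via, hσ])
    exact ⟨⟨h, σ, hh.symm⟩, hj (by rw [hψ, hh])⟩
  · exact Subtype.ext (hx.cen _ (by rw [← hψ, hz, map_one]) _)
  · exact Subtype.ext (hx.sq _ (by rw [← hψ, hz, map_one]))

theorem dich0 (h5 : 5 ≤ Fintype.card Ω) (N : Subgroup H) [N.Normal] {b : H} (hb : b ∈ N)
    (hb1 : π b ≠ 1) {c : H} (hc : Od c) : c ∈ N := by
  let π' : H →* alternatingGroup Ω := π.codRestrict _ fun h => mem_alternatingGroup.2 (hx.ev h)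
  have hs : Function.Surjective π' := fun σ => by
    obtain ⟨h, hh⟩ := hx.surj σ (mem_alternatingGroup.1 σ.2)
    exact ⟨h, Subtype.ext hh⟩
  have := alternatingGroup.isSimpleGroup (α := Ω) (by rwa [Nat.card_eq_fintype_card])
  rcases (Subgroup.Normal.map inferInstance π' hs : (N.map π').Normal).eq_bot_or_eq_top with h | h
  · exact absurd (congrArg Subtype.val (Subgroup.mem_bot.1 (h.le ⟨b, hb, rfl⟩))) hb1
  · obtain ⟨x, hxN, e⟩ := h.ge (Subgroup.mem_top (π' c))
    exact hx.mem_of_od hc hxN (congrArg Subtype.val e).symm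

theorem dich (S : Finset Ω) (h5 : S.card + 5 ≤ Fintype.card Ω) (P : Subgroup H)
    (hP : ∀ g, (∀ x ∈ S, π g x = x) → ∀ y ∈ P, g * y * g⁻¹ ∈ P) {b : H} (hb : b ∈ P)
    (hbS : ∀ x ∈ S, π b x = x) (hb1 : π b ≠ 1) {c : H} (hcS : ∀ x ∈ S, π c x = x) (hc : Od c) :
    c ∈ P := by
  obtain ⟨H', π', hx', h1, h2⟩ := hx.pull (Function.Embedding.subtype fun x => x ∉ S)
  have h3 : ∀ g, (∀ x ∈ S, π g x = x) → g ∈ H' := fun g hg => h2 g fun x hx => hg x (by
    by_contra hc; exact hx ⟨⟨x, hc⟩, rfl⟩)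
  have : (P.subgroupOf H').Normal := ⟨fun y hy g => hP g (fun x hx => by
    rw [h1, viaEmbeddingHom_apply, viaEmbedding_apply_of_notMem]
    rintro ⟨y, rfl⟩; exact y.2 hx) y hy⟩
  exact hx'.dich0 (by
    rw [Fintype.card_subtype_compl, Fintype.card_coe]; omega) (P.subgroupOf H')
    (b := ⟨b, h3 b hbS⟩) hb (fun e => hb1 (by rw [h1 ⟨b, h3 b hbS⟩, e, map_one]))
    (hc.sub (h3 c hcS))

/-- A subgroup containing the kernel and all the odd order elements fixing `S` contains the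
stabiliser of `S`. -/
theorem mem_of_cyc (S : Set Ω) (P : Subgroup H) (hK : ∀ z, π z = 1 → z ∈ P)
    (hP : ∀ (a b c : Ω) (β : H), a ≠ b → a ≠ c → b ≠ c → a ∉ S → b ∉ S → c ∉ S →
      π β = cyc a b c → Od β → β ∈ P) {g : H} (hg : ∀ x ∈ S, π g x = x) : g ∈ P := by
  classical
  obtain ⟨H', π', hx', h1, h2⟩ := hx.pull (Function.Embedding.subtype fun x => x ∉ S)
  have h3 : g ∈ H' := h2 g fun x hx => hg x (by by_contra hc; exact hx ⟨⟨x, hc⟩, rfl⟩)
  have h4 : π' ⟨g, h3⟩ ∈ Subgroup.closure {σ : Perm {x // x ∉ S} | σ.IsThreeCycle} := by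
    rw [closure_three_cycles_eq_alternating, mem_alternatingGroup]; exact hx'.ev _
  have h5 : Subgroup.closure {σ : Perm {x // x ∉ S} | σ.IsThreeCycle} ≤
      (P.map π).comap (viaEmbeddingHom (Function.Embedding.subtype fun x => x ∉ S)) := by
    rw [Subgroup.closure_le]
    intro σ hσ
    obtain ⟨a, ha⟩ : σ.support.Nonempty := by
      rw [← Finset.card_pos, IsThreeCycle.card_support hσ]; decide
    have e := IsThreeCycle.eq_swap_mul_swap_iff_mem_support hσ |>.2 ha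
    have hn := IsThreeCycle.nodup_iff_mem_support hσ |>.2 ha
    simp only [List.nodup_cons, List.mem_cons, List.not_mem_nil, or_false, not_or,
      not_false_eq_true, List.nodup_nil, and_true] at hn
    generalize σ (σ a) = c at e hn
    generalize σ a = b at e hn
    have h6 : (b : Ω) ≠ c := fun e => hn.2 (Subtype.ext e)
    have h7 : (b : Ω) ≠ a := fun e => hn.1.1 (Subtype.ext e.symm)
    have h8 : (c : Ω) ≠ a := fun e => hn.1.2 (Subtype.ext e.symm)
    obtain ⟨β, h9, h10⟩ := hx.exists_cyc h6 h7 h8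
    refine ⟨β, hP _ _ _ β h6 h7 h8 b.2 c.2 a.2 h9 h10, ?_⟩
    rw [h9, e, swap_comm a b]
    exact (via_cyc (Function.Embedding.subtype fun x => x ∉ S) b c a).symm
  obtain ⟨y, hy, e⟩ := h5 h4
  have := mul_mem hy (hK (y⁻¹ * g) (by rw [map_mul, map_inv, e, ← h1 ⟨g, h3⟩, inv_mul_cancel]))
  rwa [mul_inv_cancel_left] at this

theorem ker_mem (h6 : 6 ≤ Fintype.card Ω)
    (hmin : ∀ P : Subgroup H, (∀ σ, sign σ = 1 → ∃ h ∈ P, π h = σ) → P = ⊤)
    (h2 : ∀ z z', π z = 1 → π z' = 1 → z ≠ 1 → z' ≠ 1 → z = z') {x y u v : Ω} (hxy : x ≠ y)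
    (hux : u ≠ x) (huy : u ≠ y) (hvx : v ≠ x) (hvy : v ≠ y) (huv : u ≠ v) {α β : H}
    (ha : π α = cyc u x y) (hb : π β = cyc v x y) (oa : Od α) (ob : Od β) {z : H} (hz : π z = 1) :
    z = 1 ∨ z = (α * β) ^ 2 := by
  let ι := {w // w ≠ x ∧ w ≠ y}
  let e : ι ⊕ Bool ↪ Ω := ⟨Sum.elim Subtype.val fun b => if b then y else x, by
    rintro (a | _ | _) (b | _ | _) h <;> simp only [Sum.elim_inl, Sum.elim_inr] at h
    · rw [Subtype.ext h]
    · exact absurd h a.2.1
    · exact absurd h a.2.2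
    · exact absurd h.symm b.2.1
    · rfl
    · exact absurd h hxy
    · exact absurd h.symm b.2.2
    · exact absurd h.symm hxy
    · rfl⟩
  have he : ∀ w, w ∈ Set.range e := fun w => by
    by_cases h1 : w = x
    · exact ⟨.inr false, h1.symm⟩
    by_cases h2 : w = y
    · exact ⟨.inr true, h2.symm⟩
    exact ⟨.inl ⟨w, h1, h2⟩, rfl⟩
  have hv : ∀ i : ι, viaEmbeddingHom e (H40.Alt.xp i) = cyc i.1 x y := fun i =>
    via_cyc e (.inl i) (.inr false) (.inr true)
  by_cases h1 : (α * β) ^ 2 = 1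
  · left
    have h3 : ∀ i : ι, ∃ a, π a = cyc i.1 x y ∧ Od a := fun i => hx.exists_cyc i.2.1 i.2.2 hxy
    choose Y hY oY using h3
    obtain ⟨φ, hφ⟩ := H40.Alt.carm_hom Y (fun i => hx.pow_eq (oY i) (by
      rw [hY, cyc_pow i.2.1 i.2.2 hxy])) (fun i j hij => by
      obtain ⟨σ, hσ, h4⟩ := exists_even ![u, v, x, y] ![i.1, j.1, x, y]
        (by
          intro a b; fin_cases a <;> fin_cases b <;>
            simp [hxy, hux, huy, hvx, hvy, huv, hxy.symm, hux.symm, huy.symm, hvx.symm, hvy.symm,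
              huv.symm])
        (by
          have := Subtype.coe_ne_coe.2 hij
          intro a b; fin_cases a <;> fin_cases b <;>
            simp [hxy, i.2.1, i.2.2, j.2.1, j.2.2, this, hxy.symm, i.2.1.symm, i.2.2.symm,
              j.2.1.symm, j.2.2.symm, this.symm]) (by simpa using h6)
      obtain ⟨g, rfl⟩ := hx.surj σ hσ
      have e0 : π g u = i.1 := h4 0
      have e1 : π g v = j.1 := h4 1
      have e2 : π g x = x := h4 2
      have e3 : π g y = y := h4 3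
      rw [← hx.conj_eq (g := g) oa (oY i) (by rw [ha, hY, cyc_conj, e0, e2, e3]),
        ← hx.conj_eq (g := g) ob (oY j) (by rw [hb, hY, cyc_conj, e1, e2, e3]), conj_mul, conj_pow,
        h1, mul_one, mul_inv_cancel])
    have h4 : π.comp φ = (viaEmbeddingHom e).comp (H40.Alt.AA ι).subtype :=
      H40.Alt.hom_ext fun i => by rw [MonoidHom.comp_apply, hφ, hY]; exact (hv i).symm
    have h5 : φ.range = ⊤ := hmin _ fun σ hσ => by
      obtain ⟨τ, rfl⟩ := mem_range_via e (σ := σ) fun w hw => absurd (he w) hw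
      exact ⟨_, ⟨⟨τ, by rwa [mem_alternatingGroup, ← sign_via e]⟩, rfl⟩, DFunLike.congr_fun h4 _⟩
    obtain ⟨s, rfl⟩ := h5.ge (Subgroup.mem_top z)
    have h7 := DFunLike.congr_fun h4 s
    rw [MonoidHom.comp_apply, hz, MonoidHom.comp_apply, eq_comm,
      map_eq_one_iff _ (viaEmbeddingHom_injective e)] at h7
    rw [show s = 1 from Subtype.ext h7, map_one]
  · by_cases h3 : z = 1
    · exact Or.inl h3
    refine Or.inr (h2 _ _ hz ?_ h3 h1)
    have := congrArg (viaEmbeddingHom e) (H40.Alt.xp_mul_sq (i := (⟨u, hux, huy⟩ : ι))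
      (j := ⟨v, hvx, hvy⟩) (fun e => huv (congrArg Subtype.val e)))
    rw [map_pow, map_mul, hv, hv, map_one] at this
    rw [map_pow, map_mul, ha, hb, this]

end Cx

end H82.AG
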