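import Cfsg.Agent.Lib.AltGL.Base

/-! The inductive step `r - 3 → r` for central covers of alternating groups. -/

set_option autoImplicit false
set_option linter.style.haveILetI false

namespace H82.AG

open Equiv Equiv.Perm Module

universe u

/-- The degree bound for alternating sections of linear groups of degree `n`. -/
def Bd (n : ℕ) : Prop :=
  ∀ (p : ℕ) [Fact p.Prime] (k : Type) [Field k] [IsAlgClosed k] [CharP k p] (V : Type)
    [AddCommGroup V] [Module k V] [FiniteDimensional k V], finrank k V = n →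
    ∀ (Ω : Type) [DecidableEq Ω] [Fintype Ω], 9 ≤ Fintype.card Ω →
    ∀ (H : Type u) [Group H] [Finite H] (ρ : H →* End k V) (π : H →* Perm Ω),
      (∀ h, sign (π h) = 1) → (∀ σ, sign σ = 1 → ∃ h, π h = σ) → (∀ h, ρ h = 1 → π h = 1) →
      Fintype.card Ω - 1 - (if p ∣ Fintype.card Ω then 1 else 0) ≤ n

variable {k V : Type} [Field k] [AddCommGroup V] [Module k V] [FiniteDimensional k V]
variable {H : Type u} [Group H] {Ω : Type} [DecidableEq Ω] [Fintype Ω]
variable {π : H →* Perm Ω} {ρ : H →* End k V}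

theorem pos_of_ne {f : End k V} (h : f ≠ 1) : 0 < finrank k V := by
  rw [finrank_pos_iff]
  by_contra hc
  rw [not_nontrivial_iff_subsingleton] at hc
  exact h (LinearMap.ext fun _ => Subsingleton.elim _ _)

omit [FiniteDimensional k V] in
theorem cube_sub (h3 : ((3 : ℕ) : k) = 0) (f : End k V) : (f - 1) ^ 3 = f ^ 3 - 1 := by
  have h : ((3 : ℕ) : End k V) = 0 := by rw [← map_natCast (algebraMap k (End k V)), h3, map_zero]
  calc (f - 1) ^ 3 = f ^ 3 - 1 + ((3 : ℕ) : End k V) * (f - f ^ 2) := by push_cast; noncomm_ring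
    _ = _ := by rw [h, zero_mul, add_zero]

variable [IsAlgClosed k] [Finite H]

theorem sub_bd (p : ℕ) [Fact p.Prime] [CharP k p] (hx : Cx π) (h9 : 9 ≤ Fintype.card Ω) {β : H}
    (ob : Od β) (hb : ρ β ≠ 1) (hB : Bd.{u} (finrank k V)) : Fintype.card Ω - 2 ≤ finrank k V := by
  have := hB p k V rfl Ω h9 H ρ π hx.ev hx.surj fun h hh => by_contra fun hc =>
    hb (hx.dich0 (by omega) ρ.ker (b := h) hh hc ob)
  split_ifs at this <;> omega

theorem step (p : ℕ) [Fact p.Prime] [CharP k p] (hx : Cx π) (hf : ∀ h, ρ h = 1 → π h = 1)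
    (hnt : ¬ Tr π ρ) (h12 : 12 ≤ Fintype.card Ω) (ih : ∀ m < finrank k V, Bd.{u} m) :
    Fintype.card Ω - 1 ≤ finrank k V := by
  classical
  simp only [Tr, not_forall] at hnt
  obtain ⟨a, b, c, d, e, f, α, β, hn, ha, hb, oa, ob, hZ⟩ := hnt
  simp only [List.nodup_cons, List.mem_cons, List.not_mem_nil, or_false, not_or,
    not_false_eq_true, List.nodup_nil, and_true] at hn
  obtain ⟨⟨ab, ac, ad, ae, af⟩, ⟨bc, bd, be, bf⟩, ⟨cd, ce, cf⟩, ⟨de, df⟩, ef⟩ := hn
  obtain ⟨H', π', hx', h1, h2⟩ :=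
    hx.pull (Function.Embedding.subtype fun x => x ∉ ({a, b, c} : Finset Ω))
  have h3 : ∀ g, π g a = a → π g b = b → π g c = c → g ∈ H' := fun g e1 e2 e3 => h2 g fun x hx => by
    have : x ∈ ({a, b, c} : Finset Ω) := by by_contra hc; exact hx ⟨⟨x, hc⟩, rfl⟩
    simp only [Finset.mem_insert, Finset.mem_singleton] at this
    rcases this with rfl | rfl | rfl <;> assumption
  have h4 : ∀ g : H', (g : H) * α = α * g := fun g => hx.comm_of oa {a, b, c} (fun w hw => by
      simp only [Finset.mem_insert, Finset.mem_singleton, not_or] at hw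
      rw [ha, cyc_ne hw.1 hw.2.1 hw.2.2]) g fun x hx => by
    rw [h1, viaEmbeddingHom_apply, viaEmbedding_apply_of_notMem]
    rintro ⟨y, rfl⟩; exact y.2 hx
  have hc : Fintype.card {x // x ∉ ({a, b, c} : Finset Ω)} + 3 = Fintype.card Ω := by
    rw [Fintype.card_subtype_compl, Fintype.card_coe, Finset.card_eq_three.2 ⟨a, b, c, ab, ac, bc, rfl⟩]
    omega
  have hβ : β ∈ H' := h3 β (by rw [hb, cyc_ne ad ae af]) (by rw [hb, cyc_ne bd be bf])
    (by rw [hb, cyc_ne cd ce cf])
  have a3 : α ^ 3 = 1 := hx.pow_eq oa (by rw [ha, cyc_pow ab ac bc])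
  by_cases hp : ((3 : ℕ) : k) = 0
  · let W := LinearMap.range (ρ α - 1)
    have hcm : ∀ g : H', ρ g * (ρ α - 1) = (ρ α - 1) * ρ g := fun g => by
      rw [mul_sub, sub_mul, ← map_mul, ← map_mul, h4, mul_one, one_mul]
    have hW : ∀ g : H', W ≤ W.comap ((ρ.comp H'.subtype) g) := by
      rintro g _ ⟨v, rfl⟩
      exact ⟨ρ g v, (LinearMap.congr_fun (hcm g) v).symm⟩
    let ρ1 : H' →* End k W := Representation.subrepresentation (ρ.comp H'.subtype) W hW
    let ρ2 : H' →* End k (V ⧸ W) := Representation.quotient (ρ.comp H'.subtype) W hW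
    have e1 : ρ1 ⟨β, hβ⟩ ≠ 1 := fun e => hZ fun v =>
      congrArg Subtype.val (LinearMap.congr_fun e ⟨_, v, rfl⟩)
    obtain ⟨γ, oc, e2⟩ : ∃ γ : H', Od γ ∧ ρ2 γ ≠ 1 := by
      by_contra hcon
      push Not at hcon
      obtain ⟨x, hx1⟩ := exists_notMem_list [a, b, c, d, e, f] (by simp; omega)
      simp only [List.mem_cons, List.not_mem_nil, or_false, not_or] at hx1
      obtain ⟨xa, xb, xc, xd, xe, xf⟩ := hx1
      obtain ⟨γ, hc, oc⟩ := hx.exists_cyc de (Ne.symm xd) (Ne.symm xe)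
      have hγ : γ ∈ H' := h3 γ (by rw [hc, cyc_ne ad ae (Ne.symm xa)])
        (by rw [hc, cyc_ne bd be (Ne.symm xb)]) (by rw [hc, cyc_ne cd ce (Ne.symm xc)])
      obtain ⟨g, hg⟩ : ∃ g : H', g = ⟨β, hβ⟩ * ⟨γ, hγ⟩ := ⟨_, rfl⟩
      have h5 : ρ2 g = 1 := by rw [hg, map_mul, hcon _ (ob.sub hβ), hcon _ (oc.sub hγ), mul_one]
      have h6 : ∀ v, ∃ w, (ρ g - 1) v = (ρ α - 1) w := fun v => by
        have := LinearMap.congr_fun h5 (Submodule.Quotient.mk v)
        obtain ⟨w, hw⟩ := (Submodule.Quotient.eq W).1 this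
        exact ⟨w, hw.symm⟩
      have h7 : ∀ v, (ρ g - 1) ((ρ α - 1) v) = (ρ α - 1) ((ρ g - 1) v) := fun v => by
        rw [← End.mul_apply, ← End.mul_apply, sub_mul, hcm, mul_sub (ρ α - 1), one_mul, mul_one]
      have h8 : (ρ g - 1) ^ 3 = 0 := by
        ext v
        obtain ⟨v1, e1⟩ := h6 v
        obtain ⟨v2, e2⟩ := h6 v1
        obtain ⟨v3, e3⟩ := h6 v2
        have := LinearMap.congr_fun (cube_sub hp (ρ α)) v3
        rw [← map_pow, a3, map_one, sub_self, pow_three, End.mul_apply, End.mul_apply] at this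
        rw [pow_three, End.mul_apply, End.mul_apply, e1, h7, e2, h7, h7, e3, this]
        rfl
      rw [cube_sub hp, sub_eq_zero, ← map_pow] at h8
      have h9 := congrArg (fun σ : Perm Ω => σ d) (hf _ h8)
      have g1 : π g d = f := by
        rw [hg, Subgroup.coe_mul, map_mul, mul_apply, hb, hc, cyc_a de (Ne.symm xe), cyc_b]
      have g2 : π g f = d := by
        rw [hg, Subgroup.coe_mul, map_mul, mul_apply, hb, hc,
          cyc_ne (Ne.symm df) (Ne.symm ef) (Ne.symm xf), cyc_c df ef]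
      rw [map_pow, pow_three] at h9
      simp only [mul_apply, g1, g2, one_apply] at h9
      exact df h9.symm
    have h5 := W.finrank_quotient_add_finrank
    have h6 := pos_of_ne e1
    have h7 := pos_of_ne e2
    have h8 := sub_bd p hx' (by omega) (ob.sub hβ) e1 (ih _ (by omega))
    have h9 := sub_bd p hx' (by omega) oc e2 (ih _ (by omega))
    omega
  · have : Fact (Nat.Prime 3) := ⟨by decide⟩
    obtain ⟨ω, t, hω, e0, e1, v, hv0, hv⟩ := wt_start (ρ := ρ) ![α, β]
      (fun i j => by fin_cases i <;> fin_cases j <;> simp [h4 ⟨β, hβ⟩]) hp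
      (fun i => by
        fin_cases i
        exacts [a3, hx.pow_eq ob (by rw [hb, cyc_pow de df ef])]) (a := 0) (b := 1) hZ
    have v0 : ρ α v = ω • v := by simpa [e0] using hv 0
    have v1 : ρ β v = ω ^ (t 1 : ℕ) • v := hv 1
    let W := (ρ α).eigenspace ω
    have hW : ∀ g : H', W ≤ W.comap ((ρ.comp H'.subtype) g) := fun g w hw => by
      refine End.mem_eigenspace_iff.2 ?_
      change ρ α (ρ g w) = ω • ρ g w
      rw [← act_mul, ← h4, act_mul, End.mem_eigenspace_iff.1 hw, map_smul]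
    let ρ1 : H' →* End k W := Representation.subrepresentation (ρ.comp H'.subtype) W hW
    have e2 : ρ1 ⟨β, hβ⟩ ≠ 1 := fun e => by
      have h5 : ρ β v = v :=
        congrArg Subtype.val (LinearMap.congr_fun e ⟨v, End.mem_eigenspace_iff.2 v0⟩)
      exact hω.pow_ne_one_of_pos_of_lt e1 (t 1).2
        (smul_left_injective k hv0 (v1.symm.trans (h5.trans (one_smul k v).symm)))
    obtain ⟨g, hg⟩ := hx.surj (swap b c * swap d e) (by
      rw [map_mul, sign_swap bc, sign_swap de]; simp)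
    have h5 : α * g = g * α ^ 2 := hx.rel oa oa (by
      have e1 : cyc a b c ^ 2 = cyc a c b := by
        rw [← mul_left_inj (cyc a b c), ← pow_succ, cyc_pow ab ac bc, cyc, cyc, mul_assoc,
          swap_mul_self_mul, swap_mul_self]
      rw [ha, e1, mul_inv_eq_iff_eq_mul.1 (cyc_conj (π g) a c b), hg, mul_apply, mul_apply, mul_apply,
        swap_apply_of_ne_of_ne ad ae, swap_apply_of_ne_of_ne bd be, swap_apply_of_ne_of_ne cd ce,
        swap_apply_of_ne_of_ne ab ac, swap_apply_left, swap_apply_right])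
    have h6 := eig_le (g := ρ g⁻¹) (g' := ρ g) (f := ρ α) (e := 2) (by rw [← map_mul]; simp)
      (by rw [← map_pow, ← map_mul, ← map_mul, h5]) ω
    have h7 := eig_sum (ρ α) {ω, ω ^ 2} (finrank k W) (by simpa [W] using h6)
    rw [Finset.card_pair (fun e => by
      have := hω.pow_inj (i := 1) (j := 2) (by decide) (by decide) (by rwa [pow_one])
      omega)] at h7
    have h8 := pos_of_ne e2
    have h9 := sub_bd p hx' (by omega) (ob.sub hβ) e2 (ih _ (by omega))
    omega

theorem central (p : ℕ) [Fact p.Prime] [CharP k p] (hx : Cx π) (hf : ∀ h, ρ h = 1 → π h = 1)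
    (h9 : 9 ≤ Fintype.card Ω)
    (hmin : ∀ P : Subgroup H, (∀ σ, sign σ = 1 → ∃ h ∈ P, π h = σ) → P = ⊤)
    (h2 : ∀ z z', π z = 1 → π z' = 1 → z ≠ 1 → z' ≠ 1 → z = z')
    (ih : ∀ m < finrank k V, Bd.{u} m) :
    Fintype.card Ω - 1 - (if p ∣ Fintype.card Ω then 1 else 0) ≤ finrank k V := by
  by_cases ht : Tr π ρ
  · obtain ⟨h3, h4⟩ := triv_bound hx (by omega) hf (fun x y u v α β hn ha hb oa ob z hz =>
      hx.ker_mem (by omega) hmin h2 (by grind) (by grind) (by grind) (by grind) (by grind)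
        (by grind) ha hb oa ob hz) ht
    split_ifs with h
    · omega
    · have := h4 fun e => h ((CharP.cast_eq_zero_iff k p _).1 e)
      omega
  by_cases h11 : Fintype.card Ω ≤ 11
  · exact small_bound hx ht p h9 h11
  · have := step p hx hf ht (by omega) ih
    omega

end H82.AG
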