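import Cfsg.Agent.Lib.AltGL.Lin
import Cfsg.Agent.Lib.AltGL.Cx

/-! Modules on which disjoint 3-cycles satisfy `(s - 1)(t - 1) = 0` involve the deleted
permutation module. -/

set_option autoImplicit false
set_option linter.style.haveILetI false

namespace H82.AG

open Equiv Equiv.Perm Module

variable {k V : Type*} [Field k] [AddCommGroup V] [Module k V]
variable {H : Type*} [Group H] {Ω : Type*} [DecidableEq Ω] [Fintype Ω]

theorem act_mul (ρ : H →* End k V) (a b : H) (v : V) : ρ (a * b) v = ρ a (ρ b v) := by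
  rw [map_mul, End.mul_apply]

theorem act_inv (ρ : H →* End k V) (a : H) (v : V) : ρ a⁻¹ (ρ a v) = v := by
  rw [← act_mul, inv_mul_cancel, map_one, End.one_apply]

theorem act_inv' (ρ : H →* End k V) (a : H) (v : V) : ρ a (ρ a⁻¹ v) = v := by
  rw [← act_mul, mul_inv_cancel, map_one, End.one_apply]

theorem act_ne (ρ : H →* End k V) (a : H) {v : V} (h : v ≠ 0) : ρ a v ≠ 0 := fun e =>
  h (by rw [← act_inv ρ a v, e, map_zero])

/-- The pointwise stabiliser of a set of vectors. -/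
def fixer (ρ : H →* End k V) (W : Set V) : Subgroup H where
  carrier := {h | ∀ w ∈ W, ρ h w = w}
  one_mem' := fun w _ => by simp
  mul_mem' := fun {a b} ha hb w hw => by rw [act_mul, hb w hw, ha w hw]
  inv_mem' := fun {a} ha w hw => by
    conv_lhs => rw [← ha w hw]
    exact act_inv ρ a w

/-- `(b - 1)(a - 1) = 0`. -/
def Z (ρ : H →* End k V) (b a : H) : Prop := ∀ v, ρ b (ρ a v - v) = ρ a v - v

theorem Z_iff {ρ : H →* End k V} {a b : H} :
    Z ρ b a ↔ b ∈ fixer ρ (Set.range fun v => ρ a v - v) :=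
  ⟨fun h _ ⟨v, e⟩ => e ▸ h v, fun h v => h _ ⟨v, rfl⟩⟩

theorem Z.symm {ρ : H →* End k V} {a b : H} (h : Z ρ b a) (c : a * b = b * a) : Z ρ a b := by
  intro v
  have := h v
  rw [map_sub, ← act_mul, c, act_mul] at *
  rw [sub_eq_iff_eq_add] at this
  rw [this]; abel

variable {π : H →* Perm Ω} {ρ : H →* End k V}

theorem Cx.spread (hx : Cx π) (S : Finset Ω) (h5 : S.card + 5 ≤ Fintype.card Ω) {a b c : H}
    (ha : ∀ g, (∀ x ∈ S, π g x = x) → g * a = a * g) (hbS : ∀ x ∈ S, π b x = x) (hb1 : π b ≠ 1)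
    (hZ : Z ρ b a) (hcS : ∀ x ∈ S, π c x = x) (hc : Od c) : Z ρ c a := by
  rw [Z_iff] at hZ ⊢
  refine hx.dich S h5 _ (fun g hg y hy => ?_) hZ hbS hb1 hcS hc
  rintro _ ⟨v, rfl⟩
  have h1 : ρ g⁻¹ (ρ a v - v) = ρ a (ρ g⁻¹ v) - ρ g⁻¹ v := by
    rw [map_sub, ← act_mul, ← act_mul, (Commute.inv_left (ha g hg)).eq]
  have h2 : ρ y (ρ a (ρ g⁻¹ v) - ρ g⁻¹ v) = ρ a (ρ g⁻¹ v) - ρ g⁻¹ v := hy _ ⟨_, rfl⟩
  rw [act_mul, act_mul, h1, h2, ← h1, act_inv']

/-- Disjoint 3-cycles satisfy `(s - 1)(t - 1) = 0`. -/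
def Tr (π : H →* Perm Ω) (ρ : H →* End k V) : Prop :=
  ∀ (a b c d e f : Ω) (α β : H), [a, b, c, d, e, f].Nodup → π α = cyc a b c → π β = cyc d e f →
    Od α → Od β → Z ρ β α

/-- The kernel is generated by the square of a lifted double transposition. -/
def Ker (π : H →* Perm Ω) : Prop :=
  ∀ (x y u v : Ω) (α β : H), [x, y, u, v].Nodup → π α = cyc u x y → π β = cyc v x y →
    Od α → Od β → ∀ z, π z = 1 → z = 1 ∨ z = (α * β) ^ 2

theorem fixT (hx : Cx π) (h8 : 8 ≤ Fintype.card Ω) (hK : Ker π) (ht : Tr π ρ) {a b c : Ω}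
    (hn : [a, b, c].Nodup) {α g : H} (ha : π α = cyc a b c) (oa : Od α) (h1 : π g a = a)
    (h2 : π g b = b) (h3 : π g c = c) : Z ρ g α := by
  rw [Z_iff]
  have hP : ∀ (d e f : Ω) (β : H), d ≠ e → d ≠ f → e ≠ f → d ∉ ({a, b, c} : Set Ω) →
      e ∉ ({a, b, c} : Set Ω) → f ∉ ({a, b, c} : Set Ω) → π β = cyc d e f → Od β →
      β ∈ fixer ρ (Set.range fun v => ρ α v - v) := fun d e f β _ _ _ _ _ _ hb ob =>
    Z_iff.1 (ht a b c d e f α β (by grind) ha hb oa ob)
  refine hx.mem_of_cyc {a, b, c} _ (fun z hz => ?_) hP (by rintro _ (rfl | rfl | rfl) <;> assumption)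
  obtain ⟨x, hx1⟩ := exists_notMem_list [a, b, c] (by simp; omega)
  obtain ⟨y, hy1⟩ := exists_notMem_list [a, b, c, x] (by simp; omega)
  obtain ⟨u, hu1⟩ := exists_notMem_list [a, b, c, x, y] (by simp; omega)
  obtain ⟨v, hv1⟩ := exists_notMem_list [a, b, c, x, y, u] (by simp; omega)
  obtain ⟨β, hb, ob⟩ := hx.exists_cyc (a := u) (b := x) (c := y) (by grind) (by grind) (by grind)
  obtain ⟨γ, hc, oc⟩ := hx.exists_cyc (a := v) (b := x) (c := y) (by grind) (by grind) (by grind)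
  rcases hK x y u v β γ (by grind) hb hc ob oc z hz with rfl | rfl
  · exact one_mem _
  · exact pow_mem (mul_mem (hP _ _ _ _ (by grind) (by grind) (by grind) (by grind) (by grind)
      (by grind) hb ob) (hP _ _ _ _ (by grind) (by grind) (by grind) (by grind) (by grind)
      (by grind) hc oc)) 2

theorem exists_vec (hx : Cx π) (h8 : 8 ≤ Fintype.card Ω) (hf : ∀ h, ρ h = 1 → π h = 1) :
    ∃ (a b c : Ω) (α g : H), [a, b, c].Nodup ∧ π α = cyc a b c ∧ Od α ∧ π g a = a ∧ π g b = b ∧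
      ¬ Z ρ g α := by
  by_contra hc
  push Not at hc
  have key : ∀ (a b c d : Ω) (α β : H), [a, b, c, d].Nodup → π α = cyc a b c → π β = cyc a b d →
      Od α → Od β → Z ρ β α := by
    intro a b c d α β hn ha hb oa ob
    obtain ⟨e, he⟩ := exists_notMem_list [a, b, c, d] (by simp; omega)
    obtain ⟨f, hf⟩ := exists_notMem_list [a, b, c, d, e] (by simp; omega)
    obtain ⟨γ, h1, o1⟩ := hx.exists_cyc (a := a) (b := e) (c := d) (by grind) (by grind) (by grind)
    obtain ⟨g, h2, o2⟩ := hx.exists_cyc (a := e) (b := b) (c := f) (by grind) (by grind) (by grind)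
    have e1 : cyc b c a = cyc a b c := cyc_rot (by grind) (by grind) (by grind)
    have e2 : cyc c a b = cyc a b c := by rw [← e1]; exact cyc_rot (by grind) (by grind) (by grind)
    have h3 := Z_iff.1 (hc b c a α γ (by grind) (ha.trans e1.symm) oa
      (by rw [h1, cyc_ne] <;> grind) (by rw [h1, cyc_ne] <;> grind))
    have h4 := Z_iff.1 (hc c a b α g (by grind) (ha.trans e2.symm) oa
      (by rw [h2, cyc_ne] <;> grind) (by rw [h2, cyc_ne] <;> grind))
    rw [Z_iff, ← hx.conj_eq (g := g) o1 ob (by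
      rw [h1, hb, cyc_conj, h2, cyc_a (by grind) (by grind), cyc_ne, cyc_ne] <;> grind)]
    exact mul_mem (mul_mem h4 h3) (inv_mem h4)
  obtain ⟨a, -⟩ := exists_notMem_list ([] : List Ω) (by simp; omega)
  obtain ⟨b, hb⟩ := exists_notMem_list [a] (by simp; omega)
  obtain ⟨c, hc⟩ := exists_notMem_list [a, b] (by simp; omega)
  obtain ⟨d, hd⟩ := exists_notMem_list [a, b, c] (by simp; omega)
  obtain ⟨α, h1, o1⟩ := hx.exists_cyc (a := a) (b := b) (c := c) (by grind) (by grind) (by grind)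
  obtain ⟨β, h2, o2⟩ := hx.exists_cyc (a := a) (b := b) (c := d) (by grind) (by grind) (by grind)
  have h3 := key a b c d α β (by grind) h1 h2 o1 o2
  have h4 := key a b d c β α (by grind) h2 h1 o2 o1
  have h5 : ρ (α * β) = ρ (β * α) := by
    ext v
    have e1 := h3 v
    have e2 := h4 v
    rw [map_sub, sub_eq_iff_eq_add] at e1 e2
    rw [act_mul, act_mul, e1, e2]; abel
  have h6 := hf ((β * α)⁻¹ * (α * β)) (by rw [map_mul, h5, ← map_mul, inv_mul_cancel, map_one])
  rw [map_mul, map_inv, inv_mul_eq_one, map_mul, map_mul, h1, h2] at h6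
  have h7 := congrArg (fun σ : Perm Ω => σ a) h6
  simp only [mul_apply] at h7
  rw [cyc_a (by grind) (by grind), cyc_a (by grind) (by grind), cyc_b, cyc_b] at h7
  grind

theorem Cx.trans3 (hx : Cx π) (h5 : 5 ≤ Fintype.card Ω) {c d e x y z : Ω} (h : [c, d, e].Nodup)
    (h' : [x, y, z].Nodup) : ∃ m, π m c = x ∧ π m d = y ∧ π m e = z := by
  obtain ⟨σ, h1, h2⟩ := exists_even ![c, d, e] ![x, y, z]
    (by intro i j; fin_cases i <;> fin_cases j <;> simp <;> grind)
    (by intro i j; fin_cases i <;> fin_cases j <;> simp <;> grind) (by simpa using h5)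
  obtain ⟨m, rfl⟩ := hx.surj σ h1
  exact ⟨m, h2 0, h2 1, h2 2⟩

theorem Cx.trans2 (hx : Cx π) (h5 : 5 ≤ Fintype.card Ω) {c d : Ω} (h : c ≠ d) (x y : Ω)
    (h' : x ≠ y) : ∃ m, π m c = x ∧ π m d = y := by
  obtain ⟨z, hz⟩ := exists_notMem_list [x, y] (by simp; omega)
  obtain ⟨e, he⟩ := exists_notMem_list [c, d] (by simp; omega)
  obtain ⟨m, h1, h2, -⟩ := hx.trans3 h5 (c := c) (d := d) (e := e) (x := x) (y := y) (z := z)
    (by grind) (by grind)
  exact ⟨m, h1, h2⟩

theorem exists_pairvec (hx : Cx π) (h8 : 8 ≤ Fintype.card Ω) (hf : ∀ h, ρ h = 1 → π h = 1)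
    (hK : Ker π) (ht : Tr π ρ) : ∃ (c d e : Ω) (v : V) (s t : H), [c, d, e].Nodup ∧ v ≠ 0 ∧
      (∀ h, π h c = c → π h d = d → ρ h v = v) ∧ π t c = d ∧ π t d = c ∧ ρ t v = -v ∧
      π s = cyc c d e ∧ v + ρ s v + ρ (s * s) v = 0 := by
  obtain ⟨a, b, c, α, g, hn, ha, oa, hga, hgb, hZ⟩ := exists_vec hx h8 hf
  obtain ⟨u, hu⟩ := not_forall.1 hZ
  have F1 : ∀ h, π h a = a → π h b = b → π h c = c → ρ h (ρ α u - u) = ρ α u - u :=
    fun h h1 h2 h3 => fixT hx h8 hK ht hn ha oa h1 h2 h3 u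
  generalize ρ α u - u = w at hu F1
  obtain ⟨d, hd⟩ : ∃ d, π g c = d := ⟨_, rfl⟩
  simp only [List.nodup_cons, List.mem_cons, List.not_mem_nil, or_false, not_or,
    not_false_eq_true, List.nodup_nil, and_true] at hn
  obtain ⟨⟨hab, hac⟩, hbc⟩ := hn
  have hdc : d ≠ c := fun e => hu (F1 g hga hgb (hd.trans e))
  have hda : d ≠ a := fun e => hac ((π g).injective (hd.trans (e.trans hga.symm))).symm
  have hdb : d ≠ b := fun e => hbc ((π g).injective (hd.trans (e.trans hgb.symm))).symm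
  have F2 : ∀ h, π h a = a → π h b = b → π h c = d → ρ h w = ρ g w := fun h h1 h2 h3 => by
    have := F1 (g⁻¹ * h) (by rw [map_mul, mul_apply, h1, map_inv, Perm.inv_eq_iff_eq, hga])
      (by rw [map_mul, mul_apply, h2, map_inv, Perm.inv_eq_iff_eq, hgb])
      (by rw [map_mul, mul_apply, h3, map_inv, Perm.inv_eq_iff_eq, hd])
    conv_rhs => rw [← this, ← act_mul, mul_inv_cancel_left]
  obtain ⟨v, hv⟩ : ∃ v, v = ρ g w - w := ⟨_, rfl⟩
  have hs : ∀ e s, a ≠ e → b ≠ e → d ≠ e → π s = cyc c d e → v = ρ s w - w :=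
    fun e s h2 h3 h4 h1 => by
      rw [hv, F2 s (by rw [h1, cyc_ne hac hda.symm h2]) (by rw [h1, cyc_ne hbc hdb.symm h3])
        (by rw [h1, cyc_a hdc.symm h4])]
  obtain ⟨e, he⟩ := exists_notMem_list [a, b, c, d] (by simp; omega)
  obtain ⟨f, hf⟩ := exists_notMem_list [a, b, c, d, e] (by simp; omega)
  simp only [List.mem_cons, List.not_mem_nil, or_false, not_or] at he hf
  obtain ⟨ea, eb, ec, ed⟩ := he
  obtain ⟨fa, fb, fc, fd, fe⟩ := hf
  obtain ⟨t, ht1⟩ := hx.surj (swap c d * swap e f) (by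
    rw [map_mul, sign_swap hdc.symm, sign_swap (Ne.symm fe)]; simp)
  have ta : π t a = a := by
    rw [ht1, mul_apply, swap_apply_of_ne_of_ne (Ne.symm ea) (Ne.symm fa),
      swap_apply_of_ne_of_ne hac hda.symm]
  have tb : π t b = b := by
    rw [ht1, mul_apply, swap_apply_of_ne_of_ne (Ne.symm eb) (Ne.symm fb),
      swap_apply_of_ne_of_ne hbc hdb.symm]
  have tc : π t c = d := by
    rw [ht1, mul_apply, swap_apply_of_ne_of_ne (Ne.symm ec) (Ne.symm fc), swap_apply_left]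
  have td : π t d = c := by
    rw [ht1, mul_apply, swap_apply_of_ne_of_ne (Ne.symm ed) (Ne.symm fd), swap_apply_right]
  obtain ⟨s, hs1, os⟩ := hx.exists_cyc hdc.symm (Ne.symm ec) (Ne.symm ed)
  refine ⟨c, d, e, v, s, t, by simp [hdc.symm, Ne.symm ec, Ne.symm ed],
    by rw [hv]; exact sub_ne_zero.2 hu, fun h h1 h2 => ?_, tc, td, ?_, hs1, ?_⟩
  · refine hx.mem_of_cyc {c, d} (fixer ρ {v}) (fun z hz => ?_)
      (fun x y t β n1 n2 n3 n4 n5 n6 hb ob => ?_)
      (g := h) (by rintro _ (rfl | rfl) <;> assumption) v rfl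
    · intro _ e
      have := F1 z (by simp [hz]) (by simp [hz]) (by simp [hz])
      rw [e, hv, map_sub, ← act_mul, hx.cen z hz, act_mul, this]
    · intro _ e0
      obtain ⟨e, he⟩ := exists_notMem_list [a, b, c, d, x, y, t] (by simp; omega)
      simp only [List.mem_cons, List.not_mem_nil, or_false, not_or, Set.mem_insert_iff,
        Set.mem_singleton_iff] at he n4 n5 n6
      obtain ⟨ea, eb, ec, ed, ex, ey, et⟩ := he
      obtain ⟨s, h3, o3⟩ := hx.exists_cyc hdc.symm (Ne.symm ec) (Ne.symm ed)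
      rw [e0, hs e s (Ne.symm ea) (Ne.symm eb) (Ne.symm ed) h3]
      exact ht c d e x y t s β (by
        simp [hdc.symm, Ne.symm ec, Ne.symm ed, ex, ey, et, n1, n2, n3, Ne.symm n4.1, Ne.symm n4.2,
          Ne.symm n5.1, Ne.symm n5.2, Ne.symm n6.1, Ne.symm n6.2]) h3 hb o3 ob w
  · rw [hv, map_sub, ← act_mul, F1 (t * g) (by rw [map_mul, mul_apply, hga, ta])
      (by rw [map_mul, mul_apply, hgb, tb]) (by rw [map_mul, mul_apply, hd, td]), F2 t ta tb tc]
    abel
  · have h3 : ρ s (ρ s (ρ s w)) = w := by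
      rw [← act_mul, ← act_mul, ← pow_three', hx.pow_eq os (by
        rw [hs1, cyc_pow hdc.symm (Ne.symm ec) (Ne.symm ed)]), map_one, End.one_apply]
    rw [act_mul, hs e s (Ne.symm ea) (Ne.symm eb) (Ne.symm ed) hs1]
    simp only [map_sub, h3]
    abel

theorem exists_family (hx : Cx π) (h8 : 8 ≤ Fintype.card Ω) (hf : ∀ h, ρ h = 1 → π h = 1)
    (hK : Ker π) (ht : Tr π ρ) : ∃ U : Ω → V, (∀ x y, U x = U y → x = y) ∧
      ∀ h x y, ρ h (U y - U x) = U (π h y) - U (π h x) := by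
  obtain ⟨c, d, e, v, s, t, hn, hv0, F3, tc, td, hA, hs1, hC⟩ := exists_pairvec hx h8 hf hK ht
  have hn' := hn
  simp only [List.nodup_cons, List.mem_cons, List.not_mem_nil, or_false, not_or,
    not_false_eq_true, List.nodup_nil, and_true] at hn'
  obtain ⟨⟨hcd, hce⟩, hde⟩ := hn'
  have hV : ∀ h h', π h c = π h' c → π h d = π h' d → ρ h v = ρ h' v := fun h h' h1 h2 => by
    have := F3 (h'⁻¹ * h) (by rw [map_mul, mul_apply, h1, map_inv]; simp)
      (by rw [map_mul, mul_apply, h2, map_inv]; simp)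
    conv_rhs => rw [← this, ← act_mul, mul_inv_cancel_left]
  have T2 := hx.trans2 (by omega) hcd
  choose! G hG1 hG2 using T2 c
  obtain ⟨U, Uc, Ux⟩ : ∃ U : Ω → V, U c = 0 ∧ ∀ x, x ≠ c → U x = ρ (G x) v :=
    ⟨fun x => if x = c then 0 else ρ (G x) v, if_pos rfl, fun x h => if_neg h⟩
  have E1 : ∀ h, π h c = c → ρ h v = U (π h d) := fun h h1 => by
    have h2 : π h d ≠ c := fun e => hcd ((π h).injective (e.trans h1.symm)).symm
    exact (hV _ _ (by rw [h1, hG1 _ h2.symm]) (by rw [hG2 _ h2.symm])).trans (Ux _ h2).symm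
  have E2 : ∀ h, π h d = c → ρ h v = - U (π h c) := fun h h1 => by
    have := E1 (h * t) (by rw [map_mul, mul_apply, tc, h1])
    rw [act_mul, hA, map_neg, map_mul, mul_apply, td] at this
    rw [← this, neg_neg]
  have E3 : ∀ h, ρ h v = U (π h d) - U (π h c) := fun h => by
    by_cases h1 : π h c = c
    · rw [h1, Uc, sub_zero, E1 h h1]
    by_cases h2 : π h d = c
    · rw [h2, Uc, zero_sub, E2 h h2]
    obtain ⟨m, m1, m2, m3⟩ := hx.trans3 (by omega) hn (x := c) (y := π h c) (z := π h d) (by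
      simp [Ne.symm h1, Ne.symm h2, hcd])
    have h3 := congrArg (ρ m) hC
    have sc : π s c = d := by rw [hs1, cyc_a hcd hde]
    have sd : π s d = e := by rw [hs1, cyc_b]
    have se : π s e = c := by rw [hs1, cyc_c hce hde]
    rw [map_add, map_add, map_zero, E1 m m1, ← act_mul, ← act_mul,
      hV (m * s) h (by rw [map_mul, mul_apply, sc, m2]) (by rw [map_mul, mul_apply, sd, m3]),
      E2 (m * (s * s)) (by rw [map_mul, map_mul, mul_apply, mul_apply, sd, se, m1]),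
      map_mul π, map_mul π, mul_apply, mul_apply, sc, sd, m2, m3] at h3
    rw [← sub_eq_zero, ← h3]; abel
  refine ⟨U, fun x y hxy => by_contra fun hne => ?_, fun h x y => ?_⟩
  · obtain ⟨m, rfl, rfl⟩ := T2 x y hne
    exact act_ne ρ m hv0 (by rw [E3, hxy, sub_self])
  · by_cases hxy : x = y
    · simp [hxy]
    obtain ⟨m, rfl, rfl⟩ := T2 x y hxy
    rw [← E3, ← act_mul, E3, map_mul, mul_apply, mul_apply]

theorem triv_bound [FiniteDimensional k V] (hx : Cx π) (h8 : 8 ≤ Fintype.card Ω)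
    (hf : ∀ h, ρ h = 1 → π h = 1) (hK : Ker π) (ht : Tr π ρ) :
    Fintype.card Ω ≤ finrank k V + 2 ∧
      ((Fintype.card Ω : k) ≠ 0 → Fintype.card Ω ≤ finrank k V + 1) := by
  obtain ⟨U, hU, hE⟩ := exists_family hx h8 hf hK ht
  refine cocycle_bound U fun f h1 h2 x y => by_contra fun hne => ?_
  have hxy : x ≠ y := fun e => hne (by rw [e])
  have h3 : ∀ h, ∑ t, f t • U (π h t) = 0 := fun h => by
    have e1 : ∀ g : Ω → V, ∀ u, ∑ t, f t • (g t - u) = ∑ t, f t • g t := fun g u => by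
      simp only [smul_sub, Finset.sum_sub_distrib, ← Finset.sum_smul, h1, zero_smul, sub_zero]
    rw [← e1 _ (U (π h x))]
    simp only [← hE, ← map_smul, ← map_sum]
    rw [e1, h2, map_zero]
  obtain ⟨z, hz⟩ := exists_notMem_list [x, y] (by simp; omega)
  obtain ⟨y', hy'⟩ := exists_notMem_list [x, y, z] (by simp; omega)
  obtain ⟨y'', hy''⟩ := exists_notMem_list [x, y, z, y'] (by simp; omega)
  obtain ⟨s, hs, -⟩ := hx.exists_cyc (a := x) (b := y) (c := z) (by grind) (by grind) (by grind)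
  obtain ⟨t, ht, -⟩ := hx.exists_cyc (a := y) (b := y') (c := y'') (by grind) (by grind) (by grind)
  have h4 : ∑ u, f u • (U (π s u) - U u) = 0 := by
    simp only [smul_sub, Finset.sum_sub_distrib, h3, h2, sub_zero]
  rw [← Finset.sum_subset (Finset.subset_univ {x, y, z}) (fun u _ hu => by
      rw [hs, cyc_ne, sub_self, smul_zero] <;> grind),
    Finset.sum_insert (by grind), Finset.sum_pair (by grind), hs, cyc_a (by grind) (by grind),
    cyc_b, cyc_c (by grind) (by grind)] at h4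
  have h5 : (f x - f y) • (U y - U x) + (f y - f z) • (U z - U x) = 0 := by
    rw [← h4]; module
  have h6 := congrArg (ρ t) h5
  rw [map_add, map_smul, map_smul, hE, hE, map_zero, ht, cyc_a (by grind) (by grind),
    cyc_ne (x := x) (by grind) (by grind) (by grind),
    cyc_ne (x := z) (by grind) (by grind) (by grind)] at h6
  have h7 : (f x - f y) • (U y - U y') = 0 := by
    rw [← sub_self (0 : V)]
    nth_rewrite 1 [← h5]
    rw [← h6]; module
  rcases smul_eq_zero.1 h7 with h | h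
  · exact hne (sub_eq_zero.1 h)
  · have := hU _ _ (sub_eq_zero.1 h); grind

end H82.AG
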